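import Cfsg.Agent.Lib.Helper52.TSp.Defs

set_option autoImplicit false

namespace Cfsg.Agent.Lib.Helper52.TSp

open Matrix Cfsg Cfsg.Geo
open scoped Kronecker MatrixGroups

variable {F : Type*} [Field F] {a b d : ℕ}

theorem exists_root_of_dvd [Fintype F] (r : ℕ) (hr : r.Prime) (h : r ∣ Fintype.card F - 1) :
    ∃ ζ : F, ζ ≠ 0 ∧ ζ ≠ 1 ∧ ζ ^ r = 1 ∧ (r ≠ 2 → ζ ^ 2 ≠ 1) := by
  classical
  haveI := Fact.mk hr
  have hc : r ∣ Fintype.card Fˣ := by rw [Fintype.card_units]; exact h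
  obtain ⟨u, hu⟩ := exists_prime_orderOf_dvd_card r hc
  refine ⟨u, u.ne_zero, ?_, ?_, ?_⟩
  · intro h1
    have h2 : u = 1 := Units.ext h1
    rw [h2, orderOf_one] at hu
    exact hr.one_lt.ne hu
  · have h1 := pow_orderOf_eq_one u
    rw [hu] at h1
    have h2 := congrArg Units.val h1
    simpa using h2
  · intro hr2 h2
    have h3 : u ^ 2 = 1 := Units.ext (by simpa using h2)
    have h4 := orderOf_dvd_of_pow_eq_one h3
    rw [hu] at h4
    exact hr2 ((Nat.prime_dvd_prime_iff_eq hr Nat.prime_two).1 h4)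

theorem pow_bij_of_not_dvd [Fintype F] (r : ℕ) (hr : r.Prime) (h : ¬ r ∣ Fintype.card F - 1) :
    (∀ s : F, s ≠ 0 → ∃ t : F, t ≠ 0 ∧ t ^ r = s) ∧ (∀ s : F, s ^ r = 1 → s = 1) := by
  classical
  have hcop : (Nat.card Fˣ).Coprime r := by
    rw [Nat.card_eq_fintype_card, Fintype.card_units]
    exact ((Nat.Prime.coprime_iff_not_dvd hr).2 h).symm
  have hb := (powCoprime hcop).bijective
  constructor
  · intro s hs
    obtain ⟨t, ht⟩ := hb.2 (Units.mk0 s hs)
    refine ⟨t, t.ne_zero, ?_⟩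
    have h1 := congrArg Units.val ht
    simpa [powCoprime] using h1
  · intro s hs
    have hs0 : s ≠ 0 := by
      rintro rfl
      rw [zero_pow hr.ne_zero] at hs
      exact zero_ne_one hs
    have h1 : powCoprime hcop (Units.mk0 s hs0) = powCoprime hcop 1 := by
      ext
      simp [powCoprime, hs]
    have h2 := hb.1 h1
    have h3 := congrArg Units.val h2
    simpa using h3

end Cfsg.Agent.Lib.Helper52.TSp
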