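import Cfsg.Agent.Lib.Helper52.TSp.Defs
import Cfsg.Agent.Lib.Helper94.SpRow.Defs2

set_option autoImplicit false

namespace Cfsg.Agent.Lib.Helper52.TSp

open Matrix Cfsg Cfsg.Geo
open scoped Kronecker MatrixGroups

variable {F : Type*} [Field F] {a b d : ℕ}

namespace DG

/-- the diagonal entries -/
def w (i0 : Fin d) (ζ : F) : Fin d ⊕ Fin d → F :=
  fun k => if k = Sum.inl i0 then ζ else if k = Sum.inr i0 then ζ⁻¹ else 1

theorem w_inl_mul_inr (i0 : Fin d) (ζ : F) (hζ : ζ ≠ 0) (k : Fin d) :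
    w i0 ζ (Sum.inl k) * w i0 ζ (Sum.inr k) = 1 := by
  unfold w
  by_cases hk : k = i0
  · subst hk; simp [hζ]
  · simp [hk]

theorem gram (i0 : Fin d) (ζ : F) (hζ : ζ ≠ 0) :
    (diagonal (w i0 ζ))ᵀ * Matrix.J (Fin d) F * diagonal (w i0 ζ) = Matrix.J (Fin d) F := by
  ext i j
  rw [Matrix.diagonal_transpose, Matrix.mul_diagonal, Matrix.diagonal_mul]
  rcases i with i | i <;> rcases j with j | j
  · simp [Matrix.J]
  · by_cases hij : i = j
    · subst hij
      have := w_inl_mul_inr i0 ζ hζ i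
      simp only [Matrix.J, Matrix.fromBlocks_apply₁₂, Matrix.neg_apply, Matrix.one_apply_eq]
      linear_combination (-1 : F) * this
    · simp [Matrix.J, Matrix.one_apply_ne hij]
  · by_cases hij : i = j
    · subst hij
      have := w_inl_mul_inr i0 ζ hζ i
      simp only [Matrix.J, Matrix.fromBlocks_apply₂₁, Matrix.one_apply_eq]
      linear_combination this
    · simp [Matrix.J, Matrix.one_apply_ne hij]
  · simp [Matrix.J]

end DG

open DG in
theorem exists_diag_elt (hd : 2 ≤ d) (ζ : F) (hζ : ζ ≠ 0) (h1 : ζ ≠ 1) :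
    ∃ x ∈ spGL d F, (∀ m : ℕ, ζ ^ m = 1 → x ^ m = 1) ∧
      (∀ z : F, (x : Matrix (Fin d ⊕ Fin d) (Fin d ⊕ Fin d) F) ≠ z • 1) ∧
      ((x : Matrix (Fin d ⊕ Fin d) (Fin d ⊕ Fin d) F) - (1 : F) • 1).rank = 2 ∧
      (ζ ^ 2 ≠ 1 → ((x : Matrix (Fin d ⊕ Fin d) (Fin d ⊕ Fin d) F) - ζ • 1).rank = 2 * d - 1) := by
  classical
  let i0 : Fin d := ⟨0, by omega⟩
  let i1 : Fin d := ⟨1, by omega⟩
  have h01 : i1 ≠ i0 := by
    intro h; have := congrArg Fin.val h; simp [i0, i1] at this
  have hw0 : ∀ k, w i0 ζ k ≠ 0 := by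
    intro k
    unfold w
    split_ifs
    · exact hζ
    · exact inv_ne_zero hζ
    · exact one_ne_zero
  have hm1 : diagonal (w i0 ζ) * diagonal (fun k => (w i0 ζ k)⁻¹) = 1 := by
    rw [Matrix.diagonal_mul_diagonal, ← Matrix.diagonal_one]
    congr 1
    funext k
    exact mul_inv_cancel₀ (hw0 k)
  have hm2 : diagonal (fun k => (w i0 ζ k)⁻¹) * diagonal (w i0 ζ) = 1 := by
    rw [Matrix.diagonal_mul_diagonal, ← Matrix.diagonal_one]
    congr 1
    funext k
    exact inv_mul_cancel₀ (hw0 k)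
  let x : GL (Fin d ⊕ Fin d) F := ⟨diagonal (w i0 ζ), diagonal (fun k => (w i0 ζ k)⁻¹), hm1, hm2⟩
  have hx : (x : Matrix (Fin d ⊕ Fin d) (Fin d ⊕ Fin d) F) = diagonal (w i0 ζ) := rfl
  have hsub : ∀ c : F, (x : Matrix (Fin d ⊕ Fin d) (Fin d ⊕ Fin d) F) - c • 1
      = diagonal (fun k => w i0 ζ k - c) := by
    intro c
    rw [hx, ← Matrix.diagonal_one, ← Matrix.diagonal_smul, Matrix.diagonal_sub]
    congr 1
    funext k
    simp
  have hinv1 : ζ⁻¹ ≠ 1 := by
    intro h; exact h1 (by rw [← inv_inv ζ, h, inv_one])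
  refine ⟨x, Cfsg.Agent.Lib.Helper94.SpRow.mem_spGL_iff_gram.2 (gram i0 ζ hζ), ?_, ?_, ?_, ?_⟩
  · intro m hm
    apply Units.ext
    rw [Units.val_pow_eq_pow_val, hx, Matrix.diagonal_pow, Units.val_one, ← Matrix.diagonal_one]
    congr 1
    funext k
    simp only [Pi.pow_apply]
    unfold w
    split_ifs
    · exact hm
    · rw [inv_pow, hm, inv_one]
    · exact one_pow m
  · intro z hz
    rw [hx] at hz
    have e0 := congrFun (congrFun hz (Sum.inl i0)) (Sum.inl i0)
    have e1 := congrFun (congrFun hz (Sum.inl i1)) (Sum.inl i1)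
    simp [w, h01] at e0 e1
    exact h1 (e0.trans e1.symm)
  · rw [hsub, Matrix.rank_diagonal, Fintype.card_subtype]
    have : (Finset.univ.filter (fun k => w i0 ζ k - 1 ≠ 0))
        = {Sum.inl i0, Sum.inr i0} := by
      ext k
      simp only [Finset.mem_filter, Finset.mem_univ, true_and, Finset.mem_insert,
        Finset.mem_singleton, sub_ne_zero]
      unfold w
      split_ifs with ha hb
      · simp [ha, h1]
      · simp [hb, hinv1]
      · simp [ha, hb]
    rw [this]
    rfl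
  · intro h2
    have hz2 : ζ⁻¹ ≠ ζ := by
      intro h
      apply h2
      rw [pow_two]
      nth_rewrite 1 [← h]
      exact inv_mul_cancel₀ hζ
    rw [hsub, Matrix.rank_diagonal, Fintype.card_subtype]
    have : (Finset.univ.filter (fun k => w i0 ζ k - ζ ≠ 0))
        = Finset.univ.erase (Sum.inl i0) := by
      ext k
      simp only [Finset.mem_filter, Finset.mem_univ, true_and, Finset.mem_erase, and_true,
        sub_ne_zero]
      unfold w
      split_ifs with ha hb
      · simp [ha]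
      · simp [ha, hz2]
      · simp [ha, Ne.symm h1]
    rw [this, Finset.card_erase_of_mem (Finset.mem_univ _), Finset.card_univ, Fintype.card_sum,
      Fintype.card_fin]
    omega

end Cfsg.Agent.Lib.Helper52.TSp
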