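import Mathlib
import Cfsg.Prelude.Def_GeometricClasses
import Cfsg.Prelude.Def_ClassicalGeometry

/-! Definitions for S5980 (elements of prime order of `PSp_n(q)` and `Sp_a ⊗ O_b`). -/

set_option autoImplicit false

namespace Cfsg.Agent.Lib.Helper52.TSp

open Matrix Cfsg.Geo
open scoped Kronecker MatrixGroups

variable {F : Type*} [Field F]

/-- the isometry group of the bilinear form with Gram matrix `G` -/
def IsoM {κ : Type} [Fintype κ] [DecidableEq κ] (G : Matrix κ κ F) : Subgroup (GL κ F) where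
  carrier := {g | (g : Matrix κ κ F)ᵀ * G * (g : Matrix κ κ F) = G}
  mul_mem' {g h} hg hh := by
    simp only [Set.mem_setOf_eq] at hg hh ⊢
    rw [Units.val_mul, Matrix.transpose_mul]
    calc (h : Matrix κ κ F)ᵀ * (g : Matrix κ κ F)ᵀ * G * ((g : Matrix κ κ F) * (h : Matrix κ κ F))
        = (h : Matrix κ κ F)ᵀ * ((g : Matrix κ κ F)ᵀ * G * (g : Matrix κ κ F)) * (h : Matrix κ κ F) := by
          simp only [Matrix.mul_assoc]
      _ = G := by rw [hg, hh]
  one_mem' := by simp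
  inv_mem' {g} hg := by
    simp only [Set.mem_setOf_eq] at hg ⊢
    have h1 : (g : Matrix κ κ F) * ((g⁻¹ : GL κ F) : Matrix κ κ F) = 1 := by
      rw [← Units.val_mul, mul_inv_cancel, Units.val_one]
    have h2 : ((g⁻¹ : GL κ F) : Matrix κ κ F)ᵀ * (g : Matrix κ κ F)ᵀ = 1 := by
      rw [← Matrix.transpose_mul, h1, Matrix.transpose_one]
    calc ((g⁻¹ : GL κ F) : Matrix κ κ F)ᵀ * G * ((g⁻¹ : GL κ F) : Matrix κ κ F)
        = ((g⁻¹ : GL κ F) : Matrix κ κ F)ᵀ * ((g : Matrix κ κ F)ᵀ * G * (g : Matrix κ κ F)) *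
            ((g⁻¹ : GL κ F) : Matrix κ κ F) := by rw [hg]
      _ = (((g⁻¹ : GL κ F) : Matrix κ κ F)ᵀ * (g : Matrix κ κ F)ᵀ) * G *
            ((g : Matrix κ κ F) * ((g⁻¹ : GL κ F) : Matrix κ κ F)) := by
          simp only [Matrix.mul_assoc]
      _ = G := by rw [h1, h2, one_mul, mul_one]

theorem mem_IsoM {κ : Type} [Fintype κ] [DecidableEq κ] (G : Matrix κ κ F) (g : GL κ F) :
    g ∈ IsoM G ↔ (g : Matrix κ κ F)ᵀ * G * (g : Matrix κ κ F) = G := Iff.rfl

/-- transport from the model `GL (κ)` to `GL (ι)`: reindex along `e`, then conjugate by `P` -/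
def Th {ι κ : Type} [Fintype ι] [DecidableEq ι] [Fintype κ] [DecidableEq κ] (e : ι ≃ κ) (P : GL ι F) :
    GL κ F ≃* GL ι F :=
  (glReindex e.symm).trans (MulAut.conj P)

end Cfsg.Agent.Lib.Helper52.TSp
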