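import Cfsg.Agent.Lib.Helper52.TSp.Defs
import Cfsg.Agent.Lib.Helper94.SpRow.Base
import Cfsg.Agent.S0752

set_option autoImplicit false

namespace Cfsg.Agent.Lib.Helper52.TSp

open Matrix Cfsg Cfsg.Geo
open scoped Kronecker MatrixGroups
open Cfsg.Agent.Lib.Helper94 Cfsg.Agent.Lib.Helper94.SpRow

variable {F : Type*} [Field F] {a b d : ℕ}

theorem even_rank (h2 : (2 : F) ≠ 0) (x : GL (Fin d ⊕ Fin d) F) (hx : x ∈ spGL d F)
    (hxx : (x : Matrix (Fin d ⊕ Fin d) (Fin d ⊕ Fin d) F) * (x : Matrix (Fin d ⊕ Fin d) (Fin d ⊕ Fin d) F) = 1) :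
    Even ((x : Matrix (Fin d ⊕ Fin d) (Fin d ⊕ Fin d) F) - (1 : F) • 1).rank := by
  classical
  set xm : Matrix (Fin d ⊕ Fin d) (Fin d ⊕ Fin d) F := (x : Matrix (Fin d ⊕ Fin d) (Fin d ⊕ Fin d) F)
    with hxm
  have hpres : ∀ u v, sympForm d F (xm *ᵥ u) (xm *ᵥ v) = sympForm d F u v := mem_spGL.1 hx
  set W : Submodule F (Fin d ⊕ Fin d → F) := LinearMap.range (xm - (1 : F) • 1).mulVecLin with hW
  have hrank : (xm - (1 : F) • 1).rank = Module.finrank F W := rfl
  rw [hrank]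
  have hWneg : ∀ w ∈ W, xm *ᵥ w = -w := by
    rintro _ ⟨u, rfl⟩
    rw [Matrix.mulVecLin_apply, Matrix.mulVec_mulVec, Matrix.mul_sub, one_smul, Matrix.mul_one, hxx,
      Matrix.sub_mulVec, Matrix.sub_mulVec, Matrix.one_mulVec]
    abel
  obtain ⟨m, k, bs, -, -, -, h4⟩ := Cfsg.Agent.S0752.result ((sympB d F).restrict W)
    (fun w => by
      rw [LinearMap.BilinForm.restrict_apply]
      exact sympB_isAlt d _)
  have hk : k = 0 := by
    by_contra hk
    have j : Fin k := ⟨0, Nat.pos_of_ne_zero hk⟩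
    set w : W := bs (Sum.inr j) with hw
    have hw0 : w ≠ 0 := bs.ne_zero _
    have hperp : ∀ w' ∈ W, sympForm d F (w : Fin d ⊕ Fin d → F) w' = 0 := by
      intro w' hw'
      have := h4 j ⟨w', hw'⟩
      rw [LinearMap.BilinForm.restrict_apply] at this
      rw [← sympB_apply]
      exact this
    have hall : ∀ v, sympForm d F (w : Fin d ⊕ Fin d → F) v = 0 := by
      intro v
      have e1 : sympForm d F (w : Fin d ⊕ Fin d → F) (xm *ᵥ v - v) = 0 := by
        apply hperp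
        refine ⟨v, ?_⟩
        rw [Matrix.mulVecLin_apply, Matrix.sub_mulVec, one_smul, Matrix.one_mulVec]
      have e2 : sympForm d F (w : Fin d ⊕ Fin d → F) (xm *ᵥ v)
          = - sympForm d F (w : Fin d ⊕ Fin d → F) v := by
        have := hpres (w : Fin d ⊕ Fin d → F) (xm *ᵥ v)
        rw [hWneg _ w.2, Matrix.mulVec_mulVec, hxx, Matrix.one_mulVec] at this
        rw [← this, ← neg_one_smul F (w : Fin d ⊕ Fin d → F), sf_smul_left]
        ring
      rw [sub_eq_add_neg, sf_add_right, e2, ← neg_one_smul F v, sf_smul_right] at e1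
      have e3 : (2 : F) * sympForm d F (w : Fin d ⊕ Fin d → F) v = 0 := by linear_combination -e1
      exact (mul_eq_zero.1 e3).resolve_left h2
    apply hw0
    apply Subtype.ext
    by_contra hne
    obtain ⟨y, hy⟩ := sf_exists_ne (F := F) (m := d) (v := (w : Fin d ⊕ Fin d → F)) hne
    apply hy
    rw [sf_swap, hall, neg_zero]
  subst hk
  rw [Module.finrank_eq_card_basis bs]
  simp
end Cfsg.Agent.Lib.Helper52.TSp
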