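import Cfsg.Agent.Lib.Helper52.TSp.Defs

set_option autoImplicit false

namespace Cfsg.Agent.Lib.Helper52.TSp

open Matrix Cfsg Cfsg.Geo
open scoped Kronecker MatrixGroups

variable {F : Type*} [Field F] {a b d : ℕ}

namespace GLC1

variable {V : Type*} [AddCommGroup V] [Module F V]

theorem isCompl (h2 : (2 : F) ≠ 0) (X : V →ₗ[F] V) (hX : ∀ v, X (X v) = v) :
    IsCompl (LinearMap.ker (X - 1)) (LinearMap.ker (X + 1)) := by
  constructor
  · rw [Submodule.disjoint_def]
    intro v h1 h3
    rw [LinearMap.mem_ker, LinearMap.sub_apply, Module.End.one_apply, sub_eq_zero] at h1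
    rw [LinearMap.mem_ker, LinearMap.add_apply, Module.End.one_apply, h1] at h3
    have : (2 : F) • v = 0 := by rw [two_smul]; exact h3
    exact (smul_eq_zero.mp this).resolve_left h2
  · rw [codisjoint_iff, eq_top_iff]
    intro v _
    have hv : v = (2 : F)⁻¹ • (v + X v) + (2 : F)⁻¹ • (v - X v) := by
      rw [← smul_add]
      have : v + X v + (v - X v) = (2 : F) • v := by rw [two_smul]; abel
      rw [this, smul_smul, inv_mul_cancel₀ h2, one_smul]
    rw [hv]
    apply Submodule.add_mem_sup
    · apply Submodule.smul_mem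
      rw [LinearMap.mem_ker, LinearMap.sub_apply, Module.End.one_apply, map_add, hX]
      abel
    · apply Submodule.smul_mem
      rw [LinearMap.mem_ker, LinearMap.add_apply, Module.End.one_apply, map_sub, hX]
      abel

theorem exists_equiv [FiniteDimensional F V] (h2 : (2 : F) ≠ 0) (X Y : V →ₗ[F] V)
    (hX : ∀ v, X (X v) = v) (hY : ∀ v, Y (Y v) = v)
    (h : Module.finrank F (LinearMap.range (X - 1)) = Module.finrank F (LinearMap.range (Y - 1))) :
    ∃ c : V ≃ₗ[F] V, ∀ v, c (X v) = Y (c v) := by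
  have cX := isCompl h2 X hX
  have cY := isCompl h2 Y hY
  have r1 := LinearMap.finrank_range_add_finrank_ker (X - 1)
  have r2 := LinearMap.finrank_range_add_finrank_ker (Y - 1)
  have s1 := Submodule.finrank_add_eq_of_isCompl cX
  have s2 := Submodule.finrank_add_eq_of_isCompl cY
  have e1 : Module.finrank F (LinearMap.ker (X - 1)) = Module.finrank F (LinearMap.ker (Y - 1)) := by
    omega
  have e2 : Module.finrank F (LinearMap.ker (X + 1)) = Module.finrank F (LinearMap.ker (Y + 1)) := by
    omega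
  let f1 := LinearEquiv.ofFinrankEq _ _ e1
  let f2 := LinearEquiv.ofFinrankEq _ _ e2
  let c : V ≃ₗ[F] V := (Submodule.prodEquivOfIsCompl _ _ cX).symm ≪≫ₗ (f1.prodCongr f2) ≪≫ₗ
    (Submodule.prodEquivOfIsCompl _ _ cY)
  have hc : ∀ (p : LinearMap.ker (X - 1)) (q : LinearMap.ker (X + 1)),
      c ((p : V) + (q : V)) = (f1 p : V) + (f2 q : V) := by
    intro p q
    have : (Submodule.prodEquivOfIsCompl _ _ cX).symm ((p : V) + (q : V)) = (p, q) := by
      rw [LinearEquiv.symm_apply_eq]; rfl
    simp only [c, LinearEquiv.trans_apply, this]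
    rfl
  refine ⟨c, ?_⟩
  intro v
  obtain ⟨⟨p, q⟩, rfl⟩ := (Submodule.prodEquivOfIsCompl _ _ cX).surjective v
  have hv : (Submodule.prodEquivOfIsCompl _ _ cX) (p, q) = (p : V) + (q : V) := rfl
  rw [hv, hc]
  have hp : X (p : V) = p := by
    have := p.2
    rw [LinearMap.mem_ker, LinearMap.sub_apply, Module.End.one_apply, sub_eq_zero] at this
    exact this
  have hq : X (q : V) = ((-q : LinearMap.ker (X + 1)) : V) := by
    have := q.2
    rw [LinearMap.mem_ker, LinearMap.add_apply, Module.End.one_apply] at this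
    rw [Submodule.coe_neg]
    exact eq_neg_of_add_eq_zero_left this
  have hp' : Y (f1 p : V) = f1 p := by
    have := (f1 p).2
    rw [LinearMap.mem_ker, LinearMap.sub_apply, Module.End.one_apply, sub_eq_zero] at this
    exact this
  have hq' : Y (f2 q : V) = -(f2 q : V) := by
    have := (f2 q).2
    rw [LinearMap.mem_ker, LinearMap.add_apply, Module.End.one_apply] at this
    exact eq_neg_of_add_eq_zero_left this
  rw [map_add, hp, hq, hc, map_add, hp', hq', map_neg, Submodule.coe_neg]

end GLC1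

theorem conj_of_sq_one {m : Type} [Fintype m] [DecidableEq m] (h2 : (2 : F) ≠ 0)
    (x y : Matrix m m F) (hx : x * x = 1) (hy : y * y = 1)
    (h : (x - (1 : F) • 1).rank = (y - (1 : F) • 1).rank) :
    ∃ c : GL m F, (c : Matrix m m F) * x = y * (c : Matrix m m F) := by
  have hlin : ∀ z : Matrix m m F, (z - (1 : F) • 1).mulVecLin = Matrix.toLin' z - 1 := by
    intro z
    apply LinearMap.ext
    intro v
    simp [Matrix.sub_mulVec]
  have hsq : ∀ z : Matrix m m F, z * z = 1 → ∀ v, Matrix.toLin' z (Matrix.toLin' z v) = v := by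
    intro z hz v
    rw [Matrix.toLin'_apply, Matrix.toLin'_apply, Matrix.mulVec_mulVec, hz, Matrix.one_mulVec]
  obtain ⟨c, hc⟩ := GLC1.exists_equiv h2 (Matrix.toLin' x) (Matrix.toLin' y) (hsq x hx) (hsq y hy)
    (by
      rw [← hlin, ← hlin]
      exact h)
  let C : Matrix m m F := LinearMap.toMatrix' (c : (m → F) →ₗ[F] (m → F))
  let C' : Matrix m m F := LinearMap.toMatrix' (c.symm : (m → F) →ₗ[F] (m → F))
  have h1 : C * C' = 1 := by
    rw [← LinearMap.toMatrix'_comp]
    simp
  have h3 : C' * C = 1 := by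
    rw [← LinearMap.toMatrix'_comp]
    simp
  refine ⟨⟨C, C', h1, h3⟩, ?_⟩
  change C * x = y * C
  apply Matrix.toLin'.injective
  rw [Matrix.toLin'_mul, Matrix.toLin'_mul, Matrix.toLin'_toMatrix']
  apply LinearMap.ext
  intro v
  simp only [LinearMap.comp_apply, LinearEquiv.coe_coe]
  rw [hc]

end Cfsg.Agent.Lib.Helper52.TSp
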