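import Mathlib
import Cfsg.Agent.Lib.Helper52.TSp.Defs
import Cfsg.Agent.Lib.Helper52.TSp.GLC1
import Cfsg.Agent.Lib.Helper14.Inv2.Core1

/-! TSp farm (helper52), piece GLC2 (helper67). -/

set_option autoImplicit false

namespace Cfsg.Agent.Lib.Helper52.TSp

open Matrix Cfsg Cfsg.Geo
open scoped Kronecker MatrixGroups

variable {F : Type*} [Field F] {a b d : ℕ}

namespace GLC2

theorem rank_invol {m : Type} [Fintype m] [DecidableEq m] (h2 : (2 : F) ≠ 0) (x : Matrix m m F)
    (hx : x * x = 1) : (x - 1).rank + (x + 1).rank = Fintype.card m := by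
  apply le_antisymm
  · apply Matrix.rank_add_rank_le_card_of_mul_eq_zero
    rw [Matrix.sub_mul, Matrix.mul_add, Matrix.mul_add, hx]
    simp only [Matrix.mul_one, Matrix.one_mul]
    abel
  · have htop : LinearMap.range (x - 1).mulVecLin ⊔ LinearMap.range (x + 1).mulVecLin = ⊤ := by
      rw [eq_top_iff]
      intro v _
      have hv : v = (x - 1).mulVecLin (-(2 : F)⁻¹ • v) + (x + 1).mulVecLin ((2 : F)⁻¹ • v) := by
        simp only [Matrix.mulVecLin_apply, Matrix.sub_mulVec, Matrix.add_mulVec, Matrix.one_mulVec,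
          Matrix.mulVec_smul, neg_smul, Matrix.mulVec_neg, smul_sub, smul_add]
        have : v = (2 : F)⁻¹ • v + (2 : F)⁻¹ • v := by
          rw [← add_smul, ← two_mul, mul_inv_cancel₀ h2, one_smul]
        calc v = (2 : F)⁻¹ • v + (2 : F)⁻¹ • v := this
          _ = _ := by abel
      rw [hv]
      exact Submodule.add_mem_sup (LinearMap.mem_range_self _ _) (LinearMap.mem_range_self _ _)
    have h := Submodule.finrank_add_le_finrank_add_finrank (LinearMap.range (x - 1).mulVecLin)
      (LinearMap.range (x + 1).mulVecLin)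
    rw [htop, finrank_top, Module.finrank_fintype_fun_eq_card] at h
    exact h

theorem rank_smul' {m : Type} [Fintype m] [DecidableEq m] (c : F) (hc : c ≠ 0) (x : Matrix m m F) :
    (c • x).rank = x.rank :=
  Matrix.rank_smul_of_mem_nonZeroDivisors x (mem_nonZeroDivisors_of_ne_zero hc)

/-- the case where `-1` is a square -/
theorem conj_of_sq {m : Type} [Fintype m] [DecidableEq m] (h2 : (2 : F) ≠ 0)
    (x y : Matrix m m F) (hx : x * x = -1) (hy : y * y = -1)
    (hxr : ∀ c : F, (x - c • 1).rank = (x + c • 1).rank)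
    (hyr : ∀ c : F, (y - c • 1).rank = (y + c • 1).rank) (μ : F) (hμ : μ * μ = -1) :
    ∃ c : GL m F, (c : Matrix m m F) * x = y * (c : Matrix m m F) := by
  have hμ0 : μ ≠ 0 := by
    rintro rfl
    simp at hμ
  have hinv : μ⁻¹ * μ⁻¹ = -1 := by
    have h4 : (μ * μ) * (μ⁻¹ * μ⁻¹) = 1 := by
      field_simp
    rw [hμ] at h4
    linear_combination -h4
  have key : ∀ z : Matrix m m F, z * z = -1 → (∀ c : F, (z - c • 1).rank = (z + c • 1).rank) →
      (μ⁻¹ • z) * (μ⁻¹ • z) = 1 ∧ 2 * (μ⁻¹ • z - (1 : F) • 1).rank = Fintype.card m := by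
    intro z hz hzr
    have h1 : (μ⁻¹ • z) * (μ⁻¹ • z) = 1 := by
      rw [Matrix.smul_mul, Matrix.mul_smul, smul_smul, hz, hinv]
      simp
    refine ⟨h1, ?_⟩
    have h3 := rank_invol h2 _ h1
    have e1 : μ⁻¹ • z - 1 = μ⁻¹ • (z - μ • 1) := by
      rw [smul_sub, smul_smul, inv_mul_cancel₀ hμ0, one_smul]
    have e2 : μ⁻¹ • z + 1 = μ⁻¹ • (z + μ • 1) := by
      rw [smul_add, smul_smul, inv_mul_cancel₀ hμ0, one_smul]
    rw [one_smul]
    rw [e1, e2, rank_smul' _ (inv_ne_zero hμ0), rank_smul' _ (inv_ne_zero hμ0), ← hzr μ] at h3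
    rw [e1, rank_smul' _ (inv_ne_zero hμ0)]
    omega
  obtain ⟨hx1, hx2⟩ := key x hx hxr
  obtain ⟨hy1, hy2⟩ := key y hy hyr
  obtain ⟨c, hc⟩ := conj_of_sq_one h2 _ _ hx1 hy1 (by omega)
  refine ⟨c, ?_⟩
  rw [Matrix.mul_smul, Matrix.smul_mul] at hc
  exact smul_right_injective _ (inv_ne_zero hμ0) hc

end GLC2

open Cfsg.Agent.Lib.Helper14.Inv2 in
theorem conj_of_sq_neg_one {m : Type} [Fintype m] [DecidableEq m] (h2 : (2 : F) ≠ 0)
    (x y : Matrix m m F) (hx : x * x = -1) (hy : y * y = -1)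
    (hxr : ∀ c : F, (x - c • 1).rank = (x + c • 1).rank)
    (hyr : ∀ c : F, (y - c • 1).rank = (y + c • 1).rank) :
    ∃ c : GL m F, (c : Matrix m m F) * x = y * (c : Matrix m m F) := by
  have hE : ∀ z : Matrix m m F, z * z = -1 →
      (Matrix.toLin' z : Module.End F (m → F)) * (Matrix.toLin' z) = (-1 : F) • 1 := by
    intro z hz
    rw [Module.End.mul_eq_comp, ← Matrix.toLin'_mul, hz]
    ext v i
    simp
  obtain ⟨k, l, μ, bx, hbx⟩ := exists_nf (Matrix.toLin' x : Module.End F (m → F)) (-1) (hE x hx)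
  obtain ⟨k', l', μ', by', hby⟩ := exists_nf (Matrix.toLin' y : Module.End F (m → F)) (-1) (hE y hy)
  -- a scalar part yields a square root of `-1`
  have hroot : ∀ (z : Matrix m m F), z * z = -1 → ∀ (v : m → F) (ν : F), v ≠ 0 →
      Matrix.toLin' z v = ν • v → ν * ν = -1 := by
    intro z hz v ν hv hzv
    have h1 : Matrix.toLin' z (Matrix.toLin' z v) = (-1 : F) • v := by
      have := congrArg (fun T : Module.End F (m → F) => T v) (hE z hz)
      simpa using this
    rw [hzv, map_smul, hzv, smul_smul] at h1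
    exact smul_left_injective F hv h1
  rcases Nat.eq_zero_or_pos l with hl | hl
  · rcases Nat.eq_zero_or_pos l' with hl' | hl'
    · subst hl hl'
      have hk : k = k' := by
        have h1 := Module.finrank_eq_card_basis bx
        have h2 := Module.finrank_eq_card_basis by'
        simp at h1 h2
        omega
      subst hk
      let c : (m → F) ≃ₗ[F] (m → F) := bx.equiv by' (Equiv.refl _)
      have hc : ∀ i, c (bx i) = by' i := fun i => by simp [c]
      have hcomm : (c : (m → F) →ₗ[F] (m → F)) ∘ₗ Matrix.toLin' x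
          = Matrix.toLin' y ∘ₗ (c : (m → F) →ₗ[F] (m → F)) := by
        apply bx.ext
        rintro ((⟨i, j⟩) | j)
        · fin_cases j
          · have e1 := hbx.1 i
            have e2 := hby.1 i
            simp only [LinearMap.comp_apply, LinearEquiv.coe_coe]
            show c (Matrix.toLin' x (bx (Sum.inl (i, 0)))) = Matrix.toLin' y (c (bx (Sum.inl (i, 0))))
            rw [e1, hc, hc, e2]
          · have e1 := hbx.2.1 i
            have e2 := hby.2.1 i
            simp only [LinearMap.comp_apply, LinearEquiv.coe_coe]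
            show c (Matrix.toLin' x (bx (Sum.inl (i, 1)))) = Matrix.toLin' y (c (bx (Sum.inl (i, 1))))
            rw [e1, map_smul, hc, hc, e2]
        · exact j.elim0
      have hu1 : LinearMap.toMatrix' (c : (m → F) →ₗ[F] (m → F)) *
          LinearMap.toMatrix' (c.symm : (m → F) →ₗ[F] (m → F)) = 1 := by
        rw [← LinearMap.toMatrix'_comp]
        simp
      have hu2 : LinearMap.toMatrix' (c.symm : (m → F) →ₗ[F] (m → F)) *
          LinearMap.toMatrix' (c : (m → F) →ₗ[F] (m → F)) = 1 := by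
        rw [← LinearMap.toMatrix'_comp]
        simp
      refine ⟨⟨_, _, hu1, hu2⟩, ?_⟩
      show LinearMap.toMatrix' (c : (m → F) →ₗ[F] (m → F)) * x
        = y * LinearMap.toMatrix' (c : (m → F) →ₗ[F] (m → F))
      have := congrArg LinearMap.toMatrix' hcomm
      rw [LinearMap.toMatrix'_comp, LinearMap.toMatrix'_comp, LinearMap.toMatrix'_toLin',
        LinearMap.toMatrix'_toLin'] at this
      exact this
    · exact GLC2.conj_of_sq h2 x y hx hy hxr hyr μ'
        (hroot y hy _ μ' (by'.ne_zero (Sum.inr ⟨0, hl'⟩)) (hby.2.2 ⟨0, hl'⟩))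
  · exact GLC2.conj_of_sq h2 x y hx hy hxr hyr μ
      (hroot x hx _ μ (bx.ne_zero (Sum.inr ⟨0, hl⟩)) (hbx.2.2 ⟨0, hl⟩))

end Cfsg.Agent.Lib.Helper52.TSp
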