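import Cfsg.Agent.Lib.Helper52.TSp.Defs

/-! TSp farm, piece GR: Gram matrices of symplectic and symmetric forms. -/

set_option autoImplicit false

namespace Cfsg.Agent.Lib.Helper52.TSp

open Matrix Cfsg Cfsg.Geo
open scoped Kronecker MatrixGroups

variable {F : Type*} [Field F] {a b d : ℕ}

namespace GR

theorem form_eq {κ : Type} [Fintype κ] [DecidableEq κ] (f : (κ → F) → (κ → F) → F)
    (h : IsBilinearForm f) (u v : κ → F) : f u v = u ⬝ᵥ (gramMatrix f *ᵥ v) := by
  let B : LinearMap.BilinForm F (κ → F) :=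
    LinearMap.mk₂ F f h.add_left h.smul_left h.add_right h.smul_right
  have hB : ∀ x y, B x y = f x y := fun x y => rfl
  have hM : LinearMap.BilinForm.toMatrix' B = gramMatrix f := by
    ext i j
    rw [LinearMap.BilinForm.toMatrix'_apply]
    rfl
  have h1 : Matrix.toBilin' (LinearMap.BilinForm.toMatrix' B) = B := Matrix.toBilin'_toMatrix' B
  rw [← hB, ← h1, Matrix.toBilin'_apply', hM]

theorem isUnit_gram {κ : Type} [Fintype κ] [DecidableEq κ] (f : (κ → F) → (κ → F) → F)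
    (h : IsBilinearForm f) (hn : IsNondegenerateForm f) : IsUnit (gramMatrix f) := by
  rw [← Matrix.mulVec_injective_iff_isUnit]
  have key : ∀ v : κ → F, gramMatrix f *ᵥ v = 0 → v = 0 := by
    intro v hv
    by_contra hv0
    obtain ⟨⟨x, hx⟩, _⟩ := hn v hv0
    apply hx
    rw [form_eq f h, hv, dotProduct_zero]
  intro v w hvw
  have : gramMatrix f *ᵥ (v - w) = 0 := by
    rw [Matrix.mulVec_sub]
    exact sub_eq_zero.2 hvw
  exact sub_eq_zero.1 (key _ this)

end GR

theorem gram_symplectic (f₁ : (Fin a → F) → (Fin a → F) → F) (h : IsSymplecticForm f₁) :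
    IsUnit (gramMatrix f₁) ∧ (gramMatrix f₁)ᵀ = -gramMatrix f₁ ∧
      ∀ u : Fin a → F, u ⬝ᵥ (gramMatrix f₁ *ᵥ u) = 0 := by
  refine ⟨GR.isUnit_gram f₁ h.bilinear h.nondegenerate, ?_, ?_⟩
  · ext i j
    exact h.skew _ _
  · intro u
    rw [← GR.form_eq f₁ h.bilinear]
    exact h.alternating u

theorem gram_symmetric (f₂ : (Fin b → F) → (Fin b → F) → F) (h : IsSymmetricForm f₂) :
    IsUnit (gramMatrix f₂) ∧ (gramMatrix f₂)ᵀ = gramMatrix f₂ := by
  refine ⟨GR.isUnit_gram f₂ h.bilinear h.nondegenerate, ?_⟩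
  ext i j
  exact h.symm _ _

end Cfsg.Agent.Lib.Helper52.TSp
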