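import Cfsg.Agent.Lib.Helper52.TSp.Defs

set_option autoImplicit false

namespace Cfsg.Agent.Lib.Helper52.TSp

open Matrix Cfsg Cfsg.Geo
open scoped Kronecker MatrixGroups

variable {F : Type*} [Field F] {a b d : ℕ}

theorem kron_mem_IsoM (G1 : Matrix (Fin a) (Fin a) F) (G2 : Matrix (Fin b) (Fin b) F)
    (A : GL (Fin a) F) (B : GL (Fin b) F)
    (hA : (A : Matrix (Fin a) (Fin a) F)ᵀ * G1 * (A : Matrix (Fin a) (Fin a) F) = G1)
    (hB : (B : Matrix (Fin b) (Fin b) F)ᵀ * G2 * (B : Matrix (Fin b) (Fin b) F) = G2) :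
    ∃ k ∈ IsoM (G1 ⊗ₖ G2), k ∈ kroneckerSubgroup a b F ∧
      (k : Matrix (Fin a × Fin b) (Fin a × Fin b) F)
        = (A : Matrix (Fin a) (Fin a) F) ⊗ₖ (B : Matrix (Fin b) (Fin b) F) := by
  have hu : IsUnit ((A : Matrix (Fin a) (Fin a) F) ⊗ₖ (B : Matrix (Fin b) (Fin b) F)) := by
    refine ⟨⟨(A : Matrix (Fin a) (Fin a) F) ⊗ₖ (B : Matrix (Fin b) (Fin b) F),
      ((A⁻¹ : GL (Fin a) F) : Matrix (Fin a) (Fin a) F) ⊗ₖ
        ((B⁻¹ : GL (Fin b) F) : Matrix (Fin b) (Fin b) F), ?_, ?_⟩, rfl⟩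
    · rw [← Matrix.mul_kronecker_mul, ← Units.val_mul, ← Units.val_mul]; simp
    · rw [← Matrix.mul_kronecker_mul, ← Units.val_mul, ← Units.val_mul]; simp
  obtain ⟨k, hk⟩ := hu
  refine ⟨k, ?_, ⟨A, B, hk⟩, hk⟩
  rw [mem_IsoM, hk, ← Matrix.kroneckerMap_transpose, ← Matrix.mul_kronecker_mul,
    ← Matrix.mul_kronecker_mul, hA, hB]

end Cfsg.Agent.Lib.Helper52.TSp
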