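import Cfsg.Agent.Lib.Helper52.TSp.Defs

/-! TSp farm (helper52), piece RESTR (by helper11). -/

set_option autoImplicit false

namespace Cfsg.Agent.Lib.Helper52.TSp

open Matrix Cfsg Cfsg.Geo
open scoped Kronecker MatrixGroups

variable {F : Type*} [Field F] {a b d : ℕ}

namespace RESTR

theorem form_conj {κ : Type} [Fintype κ] [DecidableEq κ] (G M : Matrix κ κ F) (u v : κ → F) :
    u ⬝ᵥ ((Mᵀ * G * M) *ᵥ v) = (M *ᵥ u) ⬝ᵥ (G *ᵥ (M *ᵥ v)) := by
  rw [← Matrix.mulVec_mulVec, ← Matrix.mulVec_mulVec, Matrix.dotProduct_mulVec,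
    Matrix.vecMul_transpose]

theorem eq_of_form {κ : Type} [Fintype κ] [DecidableEq κ] (A B : Matrix κ κ F)
    (h : ∀ u v : κ → F, u ⬝ᵥ (A *ᵥ v) = u ⬝ᵥ (B *ᵥ v)) : A = B := by
  ext i j
  have := h (Pi.single i 1) (Pi.single j 1)
  simpa [Matrix.mulVec_single_one, single_one_dotProduct] using this

theorem skew {κ : Type} [Fintype κ] [DecidableEq κ] (G : Matrix κ κ F) (hskew : Gᵀ = -G)
    (u v : κ → F) : u ⬝ᵥ (G *ᵥ v) = - (v ⬝ᵥ (G *ᵥ u)) := by
  rw [Matrix.dotProduct_mulVec, ← Matrix.mulVec_transpose, hskew, Matrix.neg_mulVec,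
    neg_dotProduct, dotProduct_comm]

end RESTR

theorem exists_restr {κ : Type} [Fintype κ] [DecidableEq κ] (G : Matrix κ κ F) (hG : IsUnit G)
    (hskew : Gᵀ = -G) (x : GL κ F) (hx : x ∈ IsoM G) (r : ℕ) (hxr : x ^ r = 1)
    (Y : Submodule F (κ → F)) (hinv : ∀ y ∈ Y, (x : Matrix κ κ F) *ᵥ y ∈ Y)
    (hnd : ∀ y ∈ Y, (∀ y' ∈ Y, y' ⬝ᵥ (G *ᵥ y) = 0) → y = 0)
    (hne : ∃ y ∈ Y, (x : Matrix κ κ F) *ᵥ y ≠ y) :
    ∃ x' ∈ IsoM G, x' ^ r = 1 ∧ x' ≠ 1 ∧
      ((x' : Matrix κ κ F) - 1).rank ≤ Module.finrank F Y := by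
  classical
  obtain ⟨X, hX⟩ : ∃ X : Matrix κ κ F, X = (x : Matrix κ κ F) := ⟨_, rfl⟩
  rw [← hX] at hinv hne
  have hXiso : ∀ u v : κ → F, (X *ᵥ u) ⬝ᵥ (G *ᵥ (X *ᵥ v)) = u ⬝ᵥ (G *ᵥ v) := by
    intro u v
    rw [← RESTR.form_conj, hX, (mem_IsoM G x).1 hx]
  have hXr : X ^ r = 1 := by
    rw [hX, ← Units.val_pow_eq_pow_val, hxr, Units.val_one]
  let Bf : LinearMap.BilinForm F (κ → F) := Matrix.toBilin' G
  have hBf : ∀ u v, Bf u v = u ⬝ᵥ (G *ᵥ v) := fun u v => Matrix.toBilin'_apply' G u v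
  have hrefl : Bf.IsRefl := by
    intro u v h
    rw [hBf] at h ⊢
    rw [RESTR.skew G hskew, h, neg_zero]
  have hndB : (Bf.restrict Y).Nondegenerate := by
    constructor
    · intro y hy
      apply Subtype.ext
      apply hnd y.1 y.2
      intro y' hy'
      have := hy ⟨y', hy'⟩
      have h2 : (y : κ → F) ⬝ᵥ (G *ᵥ y') = 0 := by rw [← hBf]; exact this
      rw [RESTR.skew G hskew, h2, neg_zero]
    · intro y hy
      apply Subtype.ext
      apply hnd y.1 y.2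
      intro y' hy'
      have := hy ⟨y', hy'⟩
      rw [← hBf]; exact this
  have hc : IsCompl Y (Bf.orthogonal Y) :=
    LinearMap.BilinForm.isCompl_orthogonal_of_restrict_nondegenerate hrefl hndB
  obtain ⟨Y', hY'⟩ : ∃ Y', Y' = Bf.orthogonal Y := ⟨_, rfl⟩
  rw [← hY'] at hc
  have horth : ∀ y ∈ Y, ∀ z ∈ Y', y ⬝ᵥ (G *ᵥ z) = 0 := by
    intro y hy z hz
    rw [hY', LinearMap.BilinForm.mem_orthogonal_iff] at hz
    rw [← hBf]; exact hz y hy
  have horth' : ∀ y ∈ Y, ∀ z ∈ Y', z ⬝ᵥ (G *ᵥ y) = 0 := by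
    intro y hy z hz
    rw [RESTR.skew G hskew, horth y hy z hz, neg_zero]
  let p : (κ → F) →ₗ[F] (κ → F) := Y.subtype ∘ₗ Submodule.projectionOnto Y Y' hc
  have hp1 : ∀ y ∈ Y, p y = y := by
    intro y hy
    show ((Submodule.projectionOnto Y Y' hc y : Y) : κ → F) = y
    rw [Submodule.projectionOnto_apply_left hc ⟨y, hy⟩]
  have hp2 : ∀ z ∈ Y', p z = 0 := by
    intro z hz
    show ((Submodule.projectionOnto Y Y' hc z : Y) : κ → F) = 0
    rw [(Submodule.projectionOnto_apply_eq_zero_iff hc).2 hz]; rfl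
  have hdec : ∀ v : κ → F, ∃ y ∈ Y, ∃ z ∈ Y', v = y + z := by
    intro v
    have : v ∈ Y ⊔ Y' := by rw [hc.sup_eq_top]; trivial
    obtain ⟨y, hy, z, hz, rfl⟩ := Submodule.mem_sup.1 this
    exact ⟨y, hy, z, hz, rfl⟩
  obtain ⟨M, hM⟩ : ∃ M : Matrix κ κ F, ∀ y ∈ Y, ∀ z ∈ Y', M *ᵥ (y + z) = X *ᵥ y + z := by
    refine ⟨LinearMap.toMatrix' (Matrix.toLin' X ∘ₗ p + (LinearMap.id - p)), ?_⟩
    intro y hy z hz
    rw [LinearMap.toMatrix'_mulVec]
    simp only [LinearMap.add_apply, LinearMap.comp_apply, LinearMap.sub_apply, LinearMap.id_apply,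
      map_add, hp1 y hy, hp2 z hz, Matrix.toLin'_apply, Matrix.mulVec_zero]
    abel
  have hMform : Mᵀ * G * M = G := by
    apply RESTR.eq_of_form
    intro u v
    rw [RESTR.form_conj]
    obtain ⟨y1, hy1, z1, hz1, rfl⟩ := hdec u
    obtain ⟨y2, hy2, z2, hz2, rfl⟩ := hdec v
    rw [hM y1 hy1 z1 hz1, hM y2 hy2 z2 hz2]
    simp only [Matrix.mulVec_add, add_dotProduct, dotProduct_add]
    rw [hXiso, horth _ (hinv y1 hy1) z2 hz2, horth' _ (hinv y2 hy2) z1 hz1, horth y1 hy1 z2 hz2,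
      horth' y2 hy2 z1 hz1]
  have hdet : M.det ≠ 0 := by
    intro h0
    have h1 := congrArg Matrix.det hMform
    rw [Matrix.det_mul, Matrix.det_mul, h0, mul_zero] at h1
    exact ((Matrix.isUnit_iff_isUnit_det G).1 hG).ne_zero h1.symm
  have hXpow : ∀ (k : ℕ), ∀ y ∈ Y, (X ^ k) *ᵥ y ∈ Y := by
    intro k
    induction k with
    | zero => intro y hy; simpa using hy
    | succ k ih =>
      intro y hy
      rw [pow_succ, ← Matrix.mulVec_mulVec]
      exact ih _ (hinv y hy)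
  have hMpow : ∀ (k : ℕ), ∀ y ∈ Y, ∀ z ∈ Y', (M ^ k) *ᵥ (y + z) = (X ^ k) *ᵥ y + z := by
    intro k
    induction k with
    | zero => intro y hy z hz; simp
    | succ k ih =>
      intro y hy z hz
      rw [pow_succ, ← Matrix.mulVec_mulVec, hM y hy z hz, ih _ (hinv y hy) z hz, pow_succ,
        ← Matrix.mulVec_mulVec]
  refine ⟨Matrix.GeneralLinearGroup.mkOfDetNeZero M hdet, ?_, ?_, ?_, ?_⟩
  · rw [mem_IsoM]; exact hMform
  · apply Units.ext
    rw [Units.val_pow_eq_pow_val, Units.val_one]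
    show M ^ r = 1
    rw [Matrix.ext_iff_mulVec]
    intro v
    obtain ⟨y, hy, z, hz, rfl⟩ := hdec v
    rw [hMpow r y hy z hz, hXr, Matrix.one_mulVec, Matrix.one_mulVec]
  · intro h1
    obtain ⟨y, hy, hyne⟩ := hne
    apply hyne
    have h2 : M = 1 := by
      have := congrArg (fun g : GL κ F => (g : Matrix κ κ F)) h1
      exact this
    have h3 := hM y hy 0 Y'.zero_mem
    rw [add_zero, add_zero, h2, Matrix.one_mulVec] at h3
    exact h3.symm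
  · show (M - 1).rank ≤ _
    rw [Matrix.rank]
    apply Submodule.finrank_mono
    rintro _ ⟨v, rfl⟩
    obtain ⟨y, hy, z, hz, rfl⟩ := hdec v
    rw [Matrix.mulVecLin_apply, Matrix.sub_mulVec, hM y hy z hz, Matrix.one_mulVec]
    have : X *ᵥ y + z - (y + z) = X *ᵥ y - y := by abel
    rw [this]
    exact Y.sub_mem (hinv y hy) hy

end Cfsg.Agent.Lib.Helper52.TSp
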