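import Cfsg.Agent.Lib.Helper52.TSp.Defs

set_option autoImplicit false

namespace Cfsg.Agent.Lib.Helper52.TSp

open Matrix Cfsg Cfsg.Geo
open scoped Kronecker MatrixGroups

variable {F : Type*} [Field F] {a b d : ℕ}

/-! ### UF (helper12) -/

theorem uf {m : Type} [Fintype m] [DecidableEq m] (G T : Matrix m m F) (hT : Tᵀ * G * T = G)
    (hG : IsUnit G) (r : ℕ) (hr : (r : F) ≠ 0) (hTr : T ^ r = 1) :
    (∀ v : m → F, T *ᵥ v = v → (∃ t, v = (T - 1) *ᵥ t) → v = 0) ∧
    (∀ v : m → F, (∀ t, ((T - 1) *ᵥ t) ⬝ᵥ (G *ᵥ v) = 0) → T *ᵥ v = v) := by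
  constructor
  · rintro v hv ⟨t, ht⟩
    have hpow : ∀ i : ℕ, (T ^ i) *ᵥ v = v := by
      intro i
      induction i with
      | zero => simp
      | succ i ih => rw [pow_succ, ← Matrix.mulVec_mulVec, hv, ih]
    have h1 : (∑ i ∈ Finset.range r, T ^ i) *ᵥ v = (r : F) • v := by
      rw [Matrix.sum_mulVec, Finset.sum_congr rfl (fun i _ => hpow i), Finset.sum_const,
        Finset.card_range, Nat.cast_smul_eq_nsmul]
    have h2 : (∑ i ∈ Finset.range r, T ^ i) *ᵥ v = 0 := by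
      rw [ht, Matrix.mulVec_mulVec, geom_sum_mul, hTr, sub_self, Matrix.zero_mulVec]
    rw [h1] at h2
    exact (smul_eq_zero.1 h2).resolve_left hr
  · intro v hv
    have hr0 : r ≠ 0 := by
      rintro rfl
      simp at hr
    have hTu : IsUnit T := by
      refine IsUnit.of_mul_eq_one (T ^ (r - 1)) ?_
      rw [← pow_succ', Nat.sub_add_cancel (Nat.pos_of_ne_zero hr0), hTr]
    have hTtu : IsUnit Tᵀ := by
      rw [Matrix.isUnit_iff_isUnit_det, Matrix.det_transpose, ← Matrix.isUnit_iff_isUnit_det]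
      exact hTu
    have h1 : (T - 1)ᵀ *ᵥ (G *ᵥ v) = 0 := by
      apply dotProduct_eq_zero
      intro t
      rw [Matrix.mulVec_transpose, ← Matrix.dotProduct_mulVec, dotProduct_comm]
      exact hv t
    rw [Matrix.transpose_sub, Matrix.transpose_one, Matrix.sub_mulVec, Matrix.one_mulVec,
      sub_eq_zero] at h1
    have h2 : Tᵀ *ᵥ (G *ᵥ (T *ᵥ v)) = G *ᵥ v := by
      rw [Matrix.mulVec_mulVec, Matrix.mulVec_mulVec, hT]
    have h3 : G *ᵥ (T *ᵥ v) = G *ᵥ v :=
      Matrix.mulVec_injective_of_isUnit hTtu (h2.trans h1.symm)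
    exact Matrix.mulVec_injective_of_isUnit hG h3

end Cfsg.Agent.Lib.Helper52.TSp
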