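import Cfsg.Agent.Lib.Helper52.TSp.Defs
import Cfsg.Agent.Lib.Helper52.TSp.UF
import Cfsg.Agent.Lib.Helper52.TSp.KISO
import Cfsg.Agent.Lib.Helper52.TSp.RESTR

/-! TSp farm (helper52), piece PA (by helper11). -/

set_option autoImplicit false

namespace Cfsg.Agent.Lib.Helper52.TSp

open Matrix Cfsg Cfsg.Geo
open scoped Kronecker MatrixGroups

variable {F : Type*} [Field F] {a b d : ℕ}

namespace PA

/-- pure tensors -/
def tz (u : Fin a → F) (v : Fin b → F) : Fin a × Fin b → F := fun p => u p.1 * v p.2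

theorem kron_mulVec_tz (A : Matrix (Fin a) (Fin a) F) (B : Matrix (Fin b) (Fin b) F)
    (u : Fin a → F) (v : Fin b → F) : (A ⊗ₖ B) *ᵥ tz u v = tz (A *ᵥ u) (B *ᵥ v) := by
  ext ⟨i, j⟩
  simp only [Matrix.mulVec, dotProduct, Fintype.sum_prod_type, Matrix.kroneckerMap_apply, tz]
  rw [Finset.sum_mul_sum]
  refine Finset.sum_congr rfl (fun i' _ => Finset.sum_congr rfl (fun j' _ => ?_))
  ring

theorem tz_dot (u u' : Fin a → F) (v v' : Fin b → F) :
    tz u v ⬝ᵥ tz u' v' = (u ⬝ᵥ u') * (v ⬝ᵥ v') := by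
  simp only [dotProduct, Fintype.sum_prod_type, tz]
  rw [Finset.sum_mul_sum]
  refine Finset.sum_congr rfl (fun i' _ => Finset.sum_congr rfl (fun j' _ => ?_))
  ring

/-- `tz e` as a linear map -/
def tzL (e : Fin a → F) : (Fin b → F) →ₗ[F] (Fin a × Fin b → F) where
  toFun := tz e
  map_add' := by intro v w; ext p; simp [tz, mul_add]
  map_smul' := by intro c v; ext p; simp [tz]; ring

theorem tzL_apply (e : Fin a → F) (v : Fin b → F) : tzL e v = tz e v := rfl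

/-- contraction against a vector `g` -/
def ct (g : Fin a → F) : (Fin a × Fin b → F) →ₗ[F] (Fin b → F) where
  toFun := fun p j => ∑ i, g i * p (i, j)
  map_add' := by
    intro v w; ext j
    simp [mul_add, Finset.sum_add_distrib]
  map_smul' := by
    intro c v; ext j
    simp only [Pi.smul_apply, smul_eq_mul, RingHom.id_apply, Finset.mul_sum]
    refine Finset.sum_congr rfl (fun i _ => ?_)
    ring

theorem ct_tz (g u : Fin a → F) (v : Fin b → F) : ct g (tz u v) = (u ⬝ᵥ g) • v := by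
  ext j
  simp only [ct, LinearMap.coe_mk, AddHom.coe_mk, tz, dotProduct, Pi.smul_apply, smul_eq_mul,
    Finset.sum_mul]
  refine Finset.sum_congr rfl (fun i _ => ?_)
  ring

theorem exists_pair (G1 : Matrix (Fin a) (Fin a) F) (h1 : IsUnit G1) (ha : 0 < a) :
    ∃ e f : Fin a → F, e ⬝ᵥ (G1 *ᵥ f) = 1 := by
  let f : Fin a → F := Pi.single ⟨0, ha⟩ 1
  have hf : f ≠ 0 := by
    intro h
    have := congrFun h ⟨0, ha⟩
    simp [f] at this
  have hGf : G1 *ᵥ f ≠ 0 := by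
    intro h
    apply hf
    have hinj := (Matrix.mulVec_injective_iff_isUnit).2 h1
    exact hinj (by rw [h, Matrix.mulVec_zero])
  obtain ⟨i, hi⟩ := Function.ne_iff.1 hGf
  refine ⟨((G1 *ᵥ f) i)⁻¹ • Pi.single i 1, f, ?_⟩
  rw [smul_dotProduct, single_one_dotProduct, smul_eq_mul]
  exact inv_mul_cancel₀ hi

theorem kron_pow (B : Matrix (Fin b) (Fin b) F) (k : ℕ) :
    ((1 : Matrix (Fin a) (Fin a) F) ⊗ₖ B) ^ k = (1 : Matrix (Fin a) (Fin a) F) ⊗ₖ (B ^ k) := by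
  induction k with
  | zero => simp
  | succ k ih => rw [pow_succ, ih, ← Matrix.mul_kronecker_mul, mul_one, pow_succ]

end PA

open PA in
theorem exists_small_of_right (G1 : Matrix (Fin a) (Fin a) F) (h1 : IsUnit G1) (h1s : G1ᵀ = -G1)
    (h1a : ∀ u : Fin a → F, u ⬝ᵥ (G1 *ᵥ u) = 0) (ha : 0 < a)
    (G2 : Matrix (Fin b) (Fin b) F) (h2 : IsUnit G2) (h2s : G2ᵀ = G2)
    (B : GL (Fin b) F) (hB : (B : Matrix (Fin b) (Fin b) F)ᵀ * G2 * (B : Matrix (Fin b) (Fin b) F) = G2)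
    (r : ℕ) (hr : Odd r) (hrF : (r : F) ≠ 0) (hBr : B ^ r = 1) (hB1 : B ≠ 1) :
    ∃ x' ∈ IsoM (G1 ⊗ₖ G2), x' ^ r = 1 ∧ x' ≠ 1 ∧
      ((x' : Matrix (Fin a × Fin b) (Fin a × Fin b) F) - 1).rank
        ≤ ((B : Matrix (Fin b) (Fin b) F) - 1).rank := by
  classical
  obtain ⟨T, hT⟩ : ∃ T : Matrix (Fin b) (Fin b) F, T = (B : Matrix (Fin b) (Fin b) F) := ⟨_, rfl⟩
  obtain ⟨Ti, hTi⟩ : ∃ Ti : Matrix (Fin b) (Fin b) F,
      Ti = ((B⁻¹ : GL (Fin b) F) : Matrix (Fin b) (Fin b) F) := ⟨_, rfl⟩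
  have hTTi : T * Ti = 1 := by rw [hT, hTi, ← Units.val_mul, mul_inv_cancel, Units.val_one]
  have hTr : T ^ r = 1 := by rw [hT, ← Units.val_pow_eq_pow_val, hBr, Units.val_one]
  have hT1 : T ≠ 1 := by
    intro h; apply hB1; apply Units.ext; rw [← hT, h, Units.val_one]
  rw [← hT] at hB ⊢
  obtain ⟨uf1, uf2⟩ := uf G2 T hB h2 r hrF hTr
  have hiso : ∀ u v : Fin b → F, (T *ᵥ u) ⬝ᵥ (G2 *ᵥ (T *ᵥ v)) = u ⬝ᵥ (G2 *ᵥ v) := by
    intro u v
    rw [← RESTR.form_conj, hB]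
  obtain ⟨e, f, hef⟩ := exists_pair G1 h1 ha
  have hfe : f ⬝ᵥ (G1 *ᵥ e) = -1 := by rw [RESTR.skew G1 h1s, hef]
  obtain ⟨x, hxI, -, hxv⟩ := kron_mem_IsoM G1 G2 1 B (by simp) (by rw [← hT]; exact hB)
  rw [Units.val_one, ← hT] at hxv
  have hxr : x ^ r = 1 := by
    apply Units.ext
    rw [Units.val_pow_eq_pow_val, hxv, kron_pow, hTr, Units.val_one, Matrix.kroneckerMap_one_one]
    · intro _; exact zero_mul _
    · intro _; exact mul_zero _
    · exact mul_one _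
  have hGunit : IsUnit (G1 ⊗ₖ G2) := by
    obtain ⟨g1, rfl⟩ := h1
    obtain ⟨g2, rfl⟩ := h2
    have e1 : ((g1 : Matrix (Fin a) (Fin a) F) ⊗ₖ (g2 : Matrix (Fin b) (Fin b) F)) *
        (((g1⁻¹ : (Matrix (Fin a) (Fin a) F)ˣ) : Matrix (Fin a) (Fin a) F) ⊗ₖ
          ((g2⁻¹ : (Matrix (Fin b) (Fin b) F)ˣ) : Matrix (Fin b) (Fin b) F)) = 1 := by
      rw [← Matrix.mul_kronecker_mul, Units.mul_inv, Units.mul_inv]
      simp
    exact IsUnit.of_mul_eq_one _ e1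
  have hGskew : (G1 ⊗ₖ G2)ᵀ = -(G1 ⊗ₖ G2) := by
    ext ⟨i, j⟩ ⟨i', j'⟩
    have e1 : G1 i' i = - G1 i i' := by
      have := congrFun (congrFun h1s i) i'
      simpa using this
    have e2 : G2 j' j = G2 j j' := by
      have := congrFun (congrFun h2s j) j'
      simpa using this
    simp only [Matrix.transpose_apply, Matrix.kroneckerMap_apply, Matrix.neg_apply, e1, e2]
    ring
  let U : Submodule F (Fin b → F) := LinearMap.range (T - 1).mulVecLin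
  have hUmem : ∀ u, u ∈ U ↔ ∃ t, u = (T - 1) *ᵥ t := by
    intro u
    constructor
    · rintro ⟨t, rfl⟩; exact ⟨t, rfl⟩
    · rintro ⟨t, rfl⟩; exact ⟨t, rfl⟩
  have hUinv : ∀ u ∈ U, T *ᵥ u ∈ U := by
    intro u hu
    obtain ⟨t, rfl⟩ := (hUmem u).1 hu
    refine (hUmem _).2 ⟨T *ᵥ t, ?_⟩
    rw [Matrix.mulVec_mulVec, Matrix.mulVec_mulVec, mul_sub, sub_mul, mul_one, one_mul]
  let L : (Fin b → F) →ₗ[F] (Fin a × Fin b → F) := tzL e + tzL f ∘ₗ T.mulVecLin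
  have hL : ∀ u, L u = tz e u + tz f (T *ᵥ u) := fun u => rfl
  have hxL : ∀ u, (x : Matrix (Fin a × Fin b) (Fin a × Fin b) F) *ᵥ L u = L (T *ᵥ u) := by
    intro u
    rw [hxv, hL, hL, Matrix.mulVec_add, kron_mulVec_tz, kron_mulVec_tz, Matrix.one_mulVec,
      Matrix.one_mulVec]
  have hform : ∀ u u', L u ⬝ᵥ ((G1 ⊗ₖ G2) *ᵥ L u')
      = u ⬝ᵥ (G2 *ᵥ (T *ᵥ u')) - (T *ᵥ u) ⬝ᵥ (G2 *ᵥ u') := by
    intro u u'
    rw [hL, hL, Matrix.mulVec_add, kron_mulVec_tz, kron_mulVec_tz]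
    simp only [add_dotProduct, dotProduct_add, tz_dot]
    rw [h1a e, h1a f, hef, hfe]
    ring
  have hLinj : ∀ w, L w = 0 → w = 0 := by
    intro w hw
    have := congrArg (ct (G1 *ᵥ f)) hw
    rw [hL, map_add, ct_tz, ct_tz, hef, h1a f, map_zero, one_smul, zero_smul, add_zero] at this
    exact this
  have hfix0 : ∀ u ∈ U, T *ᵥ u = u → u = 0 := fun u hu h => uf1 u h ((hUmem u).1 hu)
  obtain ⟨x', hx'I, hx'r, hx'1, hx'rank⟩ := exists_restr (G1 ⊗ₖ G2) hGunit hGskew x hxI r hxr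
    (U.map L)
    (by
      rintro _ ⟨u, hu, rfl⟩
      rw [hxL]
      exact ⟨T *ᵥ u, hUinv u hu, rfl⟩)
    (by
      rintro _ ⟨u', hu', rfl⟩ hall
      have hv : T *ᵥ (T *ᵥ u' - Ti *ᵥ u') = T *ᵥ u' - Ti *ᵥ u' := by
        apply uf2
        intro t
        have h0 := hall (L ((T - 1) *ᵥ t)) ⟨_, (hUmem _).2 ⟨t, rfl⟩, rfl⟩
        rw [hform] at h0
        have h3 : (T *ᵥ ((T - 1) *ᵥ t)) ⬝ᵥ (G2 *ᵥ u')
            = ((T - 1) *ᵥ t) ⬝ᵥ (G2 *ᵥ (Ti *ᵥ u')) := by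
          have h4 : T *ᵥ (Ti *ᵥ u') = u' := by
            rw [Matrix.mulVec_mulVec, hTTi, Matrix.one_mulVec]
          rw [← hiso ((T - 1) *ᵥ t) (Ti *ᵥ u'), h4]
        rw [h3] at h0
        rw [Matrix.mulVec_sub, dotProduct_sub]
        exact h0
      have hv0 : T *ᵥ u' - Ti *ᵥ u' = 0 := by
        apply uf1 _ hv
        refine ⟨u' + Ti *ᵥ u', ?_⟩
        rw [Matrix.sub_mulVec, Matrix.one_mulVec, Matrix.mulVec_add, Matrix.mulVec_mulVec, hTTi,
          Matrix.one_mulVec]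
        abel
      have hTT : T *ᵥ (T *ᵥ u') = u' := by
        rw [sub_eq_zero.1 hv0, Matrix.mulVec_mulVec, hTTi, Matrix.one_mulVec]
      obtain ⟨k, hk⟩ := hr
      have hpow : ∀ k : ℕ, (T ^ (2 * k + 1)) *ᵥ u' = T *ᵥ u' := by
        intro k
        induction k with
        | zero => simp
        | succ k ih =>
          have : T ^ (2 * (k + 1) + 1) = T ^ (2 * k + 1) * T * T := by
            rw [show 2 * (k + 1) + 1 = (2 * k + 1) + 1 + 1 by ring, pow_succ, pow_succ]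
          rw [this, ← Matrix.mulVec_mulVec, ← Matrix.mulVec_mulVec, hTT, ih]
      have hTu : T *ᵥ u' = u' := by
        rw [← hpow k, ← hk, hTr, Matrix.one_mulVec]
      rw [hfix0 u' hu' hTu, map_zero])
    (by
      have : ∃ t, (T - 1) *ᵥ t ≠ 0 := by
        by_contra hcon
        push Not at hcon
        apply hT1
        rw [Matrix.ext_iff_mulVec]
        intro v
        have := hcon v
        rw [Matrix.sub_mulVec] at this
        exact sub_eq_zero.1 this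
      obtain ⟨t, ht⟩ := this
      refine ⟨L ((T - 1) *ᵥ t), ⟨_, (hUmem _).2 ⟨t, rfl⟩, rfl⟩, ?_⟩
      rw [hxL]
      intro h
      apply ht
      apply hfix0 _ ((hUmem _).2 ⟨t, rfl⟩)
      have h5 : L (T *ᵥ ((T - 1) *ᵥ t) - (T - 1) *ᵥ t) = 0 := by rw [map_sub, h, sub_self]
      exact sub_eq_zero.1 (hLinj _ h5))
  refine ⟨x', hx'I, hx'r, hx'1, hx'rank.trans ?_⟩
  exact Submodule.finrank_map_le L U

end Cfsg.Agent.Lib.Helper52.TSp
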