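import Cfsg.Agent.Lib.Helper52.TSp.UF
import Cfsg.Agent.Lib.Helper52.TSp.RESTR
import Cfsg.Agent.Lib.Helper52.TSp.KISO

/-! Piece PB of the TSp farm (helper52, S5980): from `A ⊗ 1` to an isometry of small support. -/

set_option autoImplicit false

namespace Cfsg.Agent.Lib.Helper52.TSp

open Matrix Cfsg Cfsg.Geo
open scoped Kronecker MatrixGroups

variable {F : Type*} [Field F] {a b d : ℕ}

namespace PB

/-- the pure tensor, linear in the first argument -/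
def tzR (w : Fin b → F) : (Fin a → F) →ₗ[F] (Fin a × Fin b → F) where
  toFun u := fun p => u p.1 * w p.2
  map_add' u v := by funext p; simp [add_mul]
  map_smul' t v := by funext p; simp [mul_assoc]

theorem tzR_apply (w : Fin b → F) (u : Fin a → F) (i : Fin a) (j : Fin b) :
    tzR w u (i, j) = u i * w j := rfl

theorem kron_mulVec_tzR (A : Matrix (Fin a) (Fin a) F) (B : Matrix (Fin b) (Fin b) F)
    (u : Fin a → F) (w : Fin b → F) :
    (A ⊗ₖ B) *ᵥ (tzR w u) = tzR (B *ᵥ w) (A *ᵥ u) := by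
  funext ⟨i, j⟩
  change ((A ⊗ₖ B) *ᵥ (fun p : Fin a × Fin b => u p.1 * w p.2)) (i, j)
    = (A *ᵥ u) i * (B *ᵥ w) j
  simp only [Matrix.mulVec, dotProduct, Fintype.sum_prod_type, Matrix.kronecker_apply,
    Finset.sum_mul_sum]
  refine Finset.sum_congr rfl fun i' _ => Finset.sum_congr rfl fun j' _ => ?_
  ring

theorem tzR_dot (u u' : Fin a → F) (w w' : Fin b → F) :
    tzR w u ⬝ᵥ tzR w' u' = (u ⬝ᵥ u') * (w ⬝ᵥ w') := by
  change (fun p : Fin a × Fin b => u p.1 * w p.2) ⬝ᵥ (fun p : Fin a × Fin b => u' p.1 * w' p.2) = _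
  simp only [dotProduct, Fintype.sum_prod_type, Finset.sum_mul_sum]
  refine Finset.sum_congr rfl fun i' _ => Finset.sum_congr rfl fun j' _ => ?_
  ring

theorem exists_anis (h2F : (2 : F) ≠ 0) (G2 : Matrix (Fin b) (Fin b) F) (h2 : IsUnit G2)
    (h2s : G2ᵀ = G2) (hb : 0 < b) : ∃ w : Fin b → F, w ⬝ᵥ (G2 *ᵥ w) ≠ 0 := by
  by_contra h
  push Not at h
  have hs : ∀ i j, Pi.single i (1 : F) ⬝ᵥ (G2 *ᵥ Pi.single j 1) = G2 i j := by
    intro i j
    simp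
  have h0 : G2 = 0 := by
    ext i j
    have e1 := h (Pi.single i 1 + Pi.single j 1)
    rw [Matrix.mulVec_add, add_dotProduct, dotProduct_add, dotProduct_add, hs, hs, hs, hs] at e1
    have e2 := h (Pi.single i 1)
    have e3 := h (Pi.single j 1)
    rw [hs] at e2 e3
    have e4 : G2 j i = G2 i j := congrFun (congrFun h2s i) j
    rw [e2, e3, e4] at e1
    have : (2 : F) * G2 i j = 0 := by linear_combination e1
    simpa [h2F] using this
  have : Nonempty (Fin b) := ⟨⟨0, hb⟩⟩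
  rw [h0] at h2
  exact not_isUnit_zero h2

theorem kron_one_pow (A : Matrix (Fin a) (Fin a) F) (n : ℕ) :
    (A ⊗ₖ (1 : Matrix (Fin b) (Fin b) F)) ^ n = (A ^ n) ⊗ₖ (1 : Matrix (Fin b) (Fin b) F) := by
  induction n with
  | zero => simp
  | succ n ih =>
    rw [pow_succ, ih, ← Matrix.mul_kronecker_mul, mul_one, pow_succ]

theorem isUnit_kron (G1 : Matrix (Fin a) (Fin a) F) (h1 : IsUnit G1)
    (G2 : Matrix (Fin b) (Fin b) F) (h2 : IsUnit G2) : IsUnit (G1 ⊗ₖ G2) := by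
  rw [Matrix.isUnit_iff_isUnit_det] at h1 h2 ⊢
  rw [Matrix.det_kronecker]
  exact (h1.pow _).mul (h2.pow _)

theorem skew_kron (G1 : Matrix (Fin a) (Fin a) F) (h1s : G1ᵀ = -G1)
    (G2 : Matrix (Fin b) (Fin b) F) (h2s : G2ᵀ = G2) : (G1 ⊗ₖ G2)ᵀ = -(G1 ⊗ₖ G2) := by
  ext ⟨i, j⟩ ⟨i', j'⟩
  have e1 : G1 i' i = - G1 i i' := congrFun (congrFun h1s i) i'
  have e2 : G2 j' j = G2 j j' := congrFun (congrFun h2s j) j'
  simp only [Matrix.transpose_apply, Matrix.kronecker_apply, Matrix.neg_apply, e1, e2]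
  ring

end PB

theorem exists_small_of_left (h2F : (2 : F) ≠ 0) (G1 : Matrix (Fin a) (Fin a) F) (h1 : IsUnit G1)
    (h1s : G1ᵀ = -G1) (G2 : Matrix (Fin b) (Fin b) F) (h2 : IsUnit G2) (h2s : G2ᵀ = G2) (hb : 0 < b)
    (A : GL (Fin a) F) (hA : (A : Matrix (Fin a) (Fin a) F)ᵀ * G1 * (A : Matrix (Fin a) (Fin a) F) = G1)
    (r : ℕ) (hrF : (r : F) ≠ 0) (hAr : A ^ r = 1) (hA1 : A ≠ 1) :
    ∃ x' ∈ IsoM (G1 ⊗ₖ G2), x' ^ r = 1 ∧ x' ≠ 1 ∧
      ((x' : Matrix (Fin a × Fin b) (Fin a × Fin b) F) - 1).rank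
        ≤ ((A : Matrix (Fin a) (Fin a) F) - 1).rank := by
  obtain ⟨w, hw⟩ := PB.exists_anis h2F G2 h2 h2s hb
  obtain ⟨k, hk, -, hkA⟩ := kron_mem_IsoM G1 G2 A 1 hA (by simp)
  rw [Units.val_one] at hkA
  have hArM : (A : Matrix (Fin a) (Fin a) F) ^ r = 1 := by
    rw [← Units.val_pow_eq_pow_val, hAr, Units.val_one]
  obtain ⟨uf1, uf2⟩ := uf G1 (A : Matrix (Fin a) (Fin a) F) hA h1 r hrF hArM
  have hkr : k ^ r = 1 := by
    apply Units.ext
    rw [Units.val_pow_eq_pow_val, hkA, PB.kron_one_pow, hArM, Units.val_one,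
      Matrix.one_kronecker_one]
  have hw0 : ∃ j, w j ≠ 0 := by
    by_contra hno
    push Not at hno
    apply hw
    have : w = 0 := funext hno
    rw [this, zero_dotProduct]
  obtain ⟨j0, hj0⟩ := hw0
  have htz_inj : ∀ u u' : Fin a → F, PB.tzR w u = PB.tzR w u' → u = u' := by
    intro u u' h
    funext i
    have := congrFun h (i, j0)
    rw [PB.tzR_apply, PB.tzR_apply] at this
    exact mul_right_cancel₀ hj0 this
  set Y : Submodule F (Fin a × Fin b → F) :=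
    (LinearMap.range ((A : Matrix (Fin a) (Fin a) F) - 1).mulVecLin).map (PB.tzR w) with hY
  have hmemY : ∀ y, y ∈ Y ↔ ∃ t, y = PB.tzR w (((A : Matrix (Fin a) (Fin a) F) - 1) *ᵥ t) := by
    intro y
    rw [hY, Submodule.mem_map]
    constructor
    · rintro ⟨u, ⟨t, rfl⟩, rfl⟩
      exact ⟨t, rfl⟩
    · rintro ⟨t, rfl⟩
      exact ⟨_, ⟨t, rfl⟩, rfl⟩
  have hky : ∀ u, (k : Matrix (Fin a × Fin b) (Fin a × Fin b) F) *ᵥ PB.tzR w u
      = PB.tzR w ((A : Matrix (Fin a) (Fin a) F) *ᵥ u) := by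
    intro u
    rw [hkA, PB.kron_mulVec_tzR, Matrix.one_mulVec]
  have hinv : ∀ y ∈ Y, (k : Matrix (Fin a × Fin b) (Fin a × Fin b) F) *ᵥ y ∈ Y := by
    intro y hy
    obtain ⟨t, rfl⟩ := (hmemY y).1 hy
    rw [hky, hmemY]
    refine ⟨(A : Matrix (Fin a) (Fin a) F) *ᵥ t, ?_⟩
    congr 1
    rw [Matrix.mulVec_mulVec, Matrix.mulVec_mulVec, mul_sub, sub_mul, mul_one, one_mul]
  have hnd : ∀ y ∈ Y, (∀ y' ∈ Y, y' ⬝ᵥ ((G1 ⊗ₖ G2) *ᵥ y) = 0) → y = 0 := by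
    intro y hy hall
    obtain ⟨t0, rfl⟩ := (hmemY y).1 hy
    have hfix : (A : Matrix (Fin a) (Fin a) F) *ᵥ (((A : Matrix (Fin a) (Fin a) F) - 1) *ᵥ t0)
        = ((A : Matrix (Fin a) (Fin a) F) - 1) *ᵥ t0 := by
      apply uf2
      intro t
      have := hall _ ((hmemY _).2 ⟨t, rfl⟩)
      rw [PB.kron_mulVec_tzR, PB.tzR_dot] at this
      exact (mul_eq_zero.1 this).resolve_right hw
    rw [uf1 _ hfix ⟨t0, rfl⟩, map_zero]
  have hne : ∃ y ∈ Y, (k : Matrix (Fin a × Fin b) (Fin a × Fin b) F) *ᵥ y ≠ y := by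
    have hex : ∃ t, ((A : Matrix (Fin a) (Fin a) F) - 1) *ᵥ t ≠ 0 := by
      by_contra hno
      push Not at hno
      apply hA1
      apply Units.ext
      rw [Units.val_one, ← sub_eq_zero]
      ext i j
      have := congrFun (hno (Pi.single j 1)) i
      simpa using this
    obtain ⟨t, ht⟩ := hex
    refine ⟨_, (hmemY _).2 ⟨t, rfl⟩, ?_⟩
    rw [hky]
    intro h
    exact ht (uf1 _ (htz_inj _ _ h) ⟨t, rfl⟩)
  obtain ⟨x', hx', hx'r, hx'1, hrank⟩ := exists_restr (G1 ⊗ₖ G2) (PB.isUnit_kron G1 h1 G2 h2)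
    (PB.skew_kron G1 h1s G2 h2s) k hk r hkr Y hinv hnd hne
  refine ⟨x', hx', hx'r, hx'1, hrank.trans ?_⟩
  exact Submodule.finrank_map_le _ _

end Cfsg.Agent.Lib.Helper52.TSp
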