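import Cfsg.Agent.Lib.Helper52.TSp.Defs

set_option autoImplicit false

namespace Cfsg.Agent.Lib.Helper52.TSp

open Matrix Cfsg Cfsg.Geo
open scoped Kronecker MatrixGroups

variable {F : Type*} [Field F] {a b d : ℕ}

/-! ### RK1 (helper12) -/

namespace RK1

/-- the pure tensor -/
def tz (u : Fin a → F) (v : Fin b → F) : Fin a × Fin b → F := fun p => u p.1 * v p.2

theorem kron_mulVec_tz (A : Matrix (Fin a) (Fin a) F) (B : Matrix (Fin b) (Fin b) F)
    (u : Fin a → F) (v : Fin b → F) : (A ⊗ₖ B) *ᵥ tz u v = tz (A *ᵥ u) (B *ᵥ v) := by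
  funext p
  obtain ⟨i, j⟩ := p
  simp only [Matrix.mulVec, dotProduct, tz, Matrix.kroneckerMap_apply, Fintype.sum_prod_type]
  rw [Finset.sum_mul_sum]
  refine Finset.sum_congr rfl (fun i' _ => Finset.sum_congr rfl (fun j' _ => ?_))
  ring

theorem apply_tz (A : Matrix (Fin a) (Fin a) F) (B : Matrix (Fin b) (Fin b) F) (c : F)
    (u : Fin a → F) (v : Fin b → F) (i : Fin a) (j : Fin b) :
    ((A ⊗ₖ B - c • (1 : Matrix (Fin a × Fin b) (Fin a × Fin b) F)) *ᵥ tz u v) (i, j)
      = (A *ᵥ u) i * (B *ᵥ v) j - c * (u i * v j) := by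
  rw [Matrix.sub_mulVec, Matrix.smul_mulVec, Matrix.one_mulVec, kron_mulVec_tz]
  rfl

/-- a non-scalar matrix moves some vector out of its line -/
theorem exists_u_phi {n : ℕ} (A : Matrix (Fin n) (Fin n) F) (hA : ∀ s : F, A ≠ s • 1) :
    ∃ u φ : Fin n → F, φ ⬝ᵥ u = 0 ∧ φ ⬝ᵥ (A *ᵥ u) ≠ 0 := by
  by_cases h : ∃ i j, i ≠ j ∧ A i j ≠ 0
  · obtain ⟨i, j, hij, hAij⟩ := h
    refine ⟨Pi.single j 1, Pi.single i 1, ?_, ?_⟩
    · rw [single_dotProduct, one_mul, Pi.single_eq_of_ne hij]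
    · rw [single_dotProduct, one_mul, Matrix.mulVec_single_one, Matrix.col_apply]
      exact hAij
  · push Not at h
    obtain ⟨i, j, hij⟩ : ∃ i j, A i i ≠ A j j := by
      by_contra hcon
      push Not at hcon
      rcases isEmpty_or_nonempty (Fin n) with he | ⟨⟨i0⟩⟩
      · exact hA 0 (by ext i; exact he.elim i)
      · apply hA (A i0 i0)
        ext i j
        rw [Matrix.smul_apply, Matrix.one_apply, smul_eq_mul]
        by_cases hij : i = j
        · subst hij
          rw [if_pos rfl, mul_one, hcon i i0]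
        · rw [if_neg hij, mul_zero, h i j hij]
    have hne : i ≠ j := by
      rintro rfl
      exact hij rfl
    refine ⟨Pi.single i 1 + Pi.single j 1, Pi.single i 1 - Pi.single j 1, ?_, ?_⟩
    · simp [sub_dotProduct, dotProduct_add, single_dotProduct, hne, hne.symm]
    · rw [Matrix.mulVec_add, Matrix.mulVec_single_one, Matrix.mulVec_single_one, sub_dotProduct,
        single_dotProduct, single_dotProduct]
      simp only [Pi.add_apply, Matrix.col_apply, one_mul]
      rw [h i j hne, h j i hne.symm, add_zero, zero_add]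
      exact sub_ne_zero.2 hij

/-- `v ↦ u ⊗ v` -/
def tzL (u : Fin a → F) : (Fin b → F) →ₗ[F] (Fin a × Fin b → F) where
  toFun v := tz u v
  map_add' v w := by funext p; simp [tz, mul_add]
  map_smul' s v := by funext p; simp [tz]; ring

/-- `u ↦ u ⊗ v` -/
def tzR (v : Fin b → F) : (Fin a → F) →ₗ[F] (Fin a × Fin b → F) where
  toFun u := tz u v
  map_add' u w := by funext p; simp [tz, add_mul]
  map_smul' s u := by funext p; simp [tz]; ring

theorem le_rank_of_inj {n : ℕ} (M : Matrix (Fin a × Fin b) (Fin a × Fin b) F)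
    (L : (Fin n → F) →ₗ[F] (Fin a × Fin b → F))
    (h : ∀ v, M *ᵥ (L v) = 0 → v = 0) : n ≤ M.rank := by
  have hinj : Function.Injective (M.mulVecLin ∘ₗ L) := by
    rw [← LinearMap.ker_eq_bot, LinearMap.ker_eq_bot']
    intro v hv
    exact h v hv
  have h1 := LinearMap.finrank_range_of_inj hinj
  rw [Module.finrank_fin_fun] at h1
  rw [← h1]
  exact Submodule.finrank_mono (LinearMap.range_comp_le_range _ _)

end RK1

open RK1

theorem le_rank_kron_left (A : Matrix (Fin a) (Fin a) F) (hA : ∀ s : F, A ≠ s • 1)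
    (B : Matrix (Fin b) (Fin b) F) (hB : IsUnit B) (c : F) :
    b ≤ (A ⊗ₖ B - c • (1 : Matrix (Fin a × Fin b) (Fin a × Fin b) F)).rank := by
  obtain ⟨u, φ, h0, h1⟩ := exists_u_phi A hA
  apply le_rank_of_inj _ (tzL u)
  intro v hv
  have hBv : B *ᵥ v = 0 := by
    funext j
    have h2 : ∑ i, φ i * ((A ⊗ₖ B - c • (1 : Matrix (Fin a × Fin b) (Fin a × Fin b) F)) *ᵥ
        tz u v) (i, j) = 0 := by
      have : (A ⊗ₖ B - c • (1 : Matrix (Fin a × Fin b) (Fin a × Fin b) F)) *ᵥ tz u v = 0 := hv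
      rw [this]
      simp
    simp only [apply_tz] at h2
    have h3 : ∑ i, φ i * ((A *ᵥ u) i * (B *ᵥ v) j - c * (u i * v j))
        = (φ ⬝ᵥ (A *ᵥ u)) * (B *ᵥ v) j - c * (φ ⬝ᵥ u) * v j := by
      simp only [dotProduct, Finset.sum_mul, Finset.mul_sum, ← Finset.sum_sub_distrib]
      refine Finset.sum_congr rfl (fun i _ => ?_)
      ring
    rw [h3, h0, mul_zero, zero_mul, sub_zero] at h2
    exact (mul_eq_zero.1 h2).resolve_left h1
  exact Matrix.mulVec_injective_of_isUnit hB (by rw [hBv, Matrix.mulVec_zero])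

theorem le_rank_kron_right (A : Matrix (Fin a) (Fin a) F) (hA : IsUnit A)
    (B : Matrix (Fin b) (Fin b) F) (hB : ∀ s : F, B ≠ s • 1) (c : F) :
    a ≤ (A ⊗ₖ B - c • (1 : Matrix (Fin a × Fin b) (Fin a × Fin b) F)).rank := by
  obtain ⟨w, φ, h0, h1⟩ := exists_u_phi B hB
  apply le_rank_of_inj _ (tzR w)
  intro u hu
  have hAu : A *ᵥ u = 0 := by
    funext i
    have h2 : ∑ j, φ j * ((A ⊗ₖ B - c • (1 : Matrix (Fin a × Fin b) (Fin a × Fin b) F)) *ᵥ
        tz u w) (i, j) = 0 := by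
      have : (A ⊗ₖ B - c • (1 : Matrix (Fin a × Fin b) (Fin a × Fin b) F)) *ᵥ tz u w = 0 := hu
      rw [this]
      simp
    simp only [apply_tz] at h2
    have h3 : ∑ j, φ j * ((A *ᵥ u) i * (B *ᵥ w) j - c * (u i * w j))
        = (φ ⬝ᵥ (B *ᵥ w)) * (A *ᵥ u) i - c * (φ ⬝ᵥ w) * u i := by
      simp only [dotProduct, Finset.sum_mul, Finset.mul_sum, ← Finset.sum_sub_distrib]
      refine Finset.sum_congr rfl (fun i _ => ?_)
      ring
    rw [h3, h0, mul_zero, zero_mul, sub_zero] at h2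
    exact (mul_eq_zero.1 h2).resolve_left h1
  exact Matrix.mulVec_injective_of_isUnit hA (by rw [hAu, Matrix.mulVec_zero])

end Cfsg.Agent.Lib.Helper52.TSp
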