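import Cfsg.Agent.Lib.Helper52.TSp.Defs

/-! Piece RK3 of the TSp farm (helper52): a lower bound for the rank of `A ⊗ B - 1`. -/

set_option autoImplicit false

namespace Cfsg.Agent.Lib.Helper52.TSp

open Matrix Cfsg Cfsg.Geo
open scoped Kronecker MatrixGroups

variable {F : Type*} [Field F] {a b d : ℕ}

namespace RK3

/-- the pure tensor `u ⊗ v`, linear in `v` -/
def tzL (u : Fin a → F) : (Fin b → F) →ₗ[F] (Fin a × Fin b → F) where
  toFun v := fun p => u p.1 * v p.2
  map_add' v w := by ext p; simp [mul_add]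
  map_smul' c v := by ext p; simp [mul_left_comm]

/-- contraction with a functional on the first factor -/
def ctr (φ : (Fin a → F) →ₗ[F] F) : (Fin a × Fin b → F) →ₗ[F] (Fin b → F) where
  toFun w := fun j => φ (fun i => w (i, j))
  map_add' v w := by
    ext j
    exact φ.map_add (fun i => v (i, j)) (fun i => w (i, j))
  map_smul' c v := by
    ext j
    exact φ.map_smul c (fun i => v (i, j))

theorem ctr_tzL (φ : (Fin a → F) →ₗ[F] F) (u : Fin a → F) (v : Fin b → F) :
    ctr φ (tzL u v) = φ u • v := by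
  ext j
  have h : (fun i => u i * v j) = v j • u := by ext i; simp [mul_comm]
  change φ (fun i => u i * v j) = φ u * v j
  rw [h, map_smul, smul_eq_mul, mul_comm]

theorem kron_mulVec_tzL (A : Matrix (Fin a) (Fin a) F) (B : Matrix (Fin b) (Fin b) F)
    (u : Fin a → F) (v : Fin b → F) :
    (A ⊗ₖ B) *ᵥ (tzL u v) = tzL (A *ᵥ u) (B *ᵥ v) := by
  ext ⟨i, j⟩
  change (A ⊗ₖ B) (i, j) ⬝ᵥ (fun p : Fin a × Fin b => u p.1 * v p.2) = (A i ⬝ᵥ u) * (B j ⬝ᵥ v)
  simp only [dotProduct, Fintype.sum_prod_type, kroneckerMap_apply, Finset.sum_mul_sum]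
  refine Finset.sum_congr rfl (fun i' _ => Finset.sum_congr rfl (fun j' _ => ?_))
  ring

end RK3

open RK3 in
theorem two_mul_le_rank_kron (ha : 3 ≤ a) (A : Matrix (Fin a) (Fin a) F)
    (hA : ∀ (u : Fin a → F) (l : F), u ≠ 0 → A *ᵥ u ≠ l • u)
    (B : Matrix (Fin b) (Fin b) F) (hB : ∀ (w : Fin b → F) (l : F), w ≠ 0 → B *ᵥ w ≠ l • w) :
    2 * b ≤ (A ⊗ₖ B - (1 : Matrix (Fin a × Fin b) (Fin a × Fin b) F)).rank := by
  classical
  -- a nonzero vector
  obtain ⟨u, hu⟩ : ∃ u : Fin a → F, u ≠ 0 := by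
    refine ⟨Pi.single ⟨0, by omega⟩ 1, ?_⟩
    intro h
    have := congrFun h ⟨0, by omega⟩
    simp at this
  -- a vector outside the span of `u, A u`
  obtain ⟨u', hu'⟩ : ∃ u' : Fin a → F, u' ∉ Submodule.span F ({u, A *ᵥ u} : Set (Fin a → F)) := by
    by_contra hcon
    push Not at hcon
    have htop : Submodule.span F ({u, A *ᵥ u} : Set (Fin a → F)) = ⊤ :=
      Submodule.eq_top_iff'.2 hcon
    have h1 := finrank_span_finset_le_card (R := F) ({u, A *ᵥ u} : Finset (Fin a → F))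
    have h2 : (({u, A *ᵥ u} : Finset (Fin a → F)) : Set (Fin a → F)) = {u, A *ᵥ u} := by simp
    rw [Set.finrank, h2, htop, finrank_top, Module.finrank_fin_fun] at h1
    have h3 : ({u, A *ᵥ u} : Finset (Fin a → F)).card ≤ 2 := Finset.card_le_two
    omega
  -- functionals
  obtain ⟨φ, hφu', hφ⟩ := Submodule.exists_le_ker_of_notMem hu'
  have hφu : φ u = 0 := hφ (Submodule.subset_span (by simp))
  have hφAu : φ (A *ᵥ u) = 0 := hφ (Submodule.subset_span (by simp))
  have hAu : A *ᵥ u ∉ Submodule.span F ({u} : Set (Fin a → F)) := by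
    intro h
    obtain ⟨l, hl⟩ := Submodule.mem_span_singleton.1 h
    exact hA u l hu hl.symm
  obtain ⟨ψ, hψAu, hψ⟩ := Submodule.exists_le_ker_of_notMem hAu
  have hψu : ψ u = 0 := hψ (Submodule.subset_span (by simp))
  -- the linear map
  let Ψ : ((Fin b → F) × (Fin b → F)) →ₗ[F] (Fin a × Fin b → F) :=
    (tzL u).coprod (tzL u')
  let M := A ⊗ₖ B - (1 : Matrix (Fin a × Fin b) (Fin a × Fin b) F)
  have hM : ∀ (x : Fin a → F) (v : Fin b → F),
      M *ᵥ (tzL x v) = tzL (A *ᵥ x) (B *ᵥ v) - tzL x v := by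
    intro x v
    rw [Matrix.sub_mulVec, kron_mulVec_tzL, Matrix.one_mulVec]
  have hinj : Function.Injective (M.mulVecLin ∘ₗ Ψ) := by
    rw [← LinearMap.ker_eq_bot, LinearMap.ker_eq_bot']
    rintro ⟨v, v'⟩ h
    have h0 : tzL (A *ᵥ u) (B *ᵥ v) - tzL u v + (tzL (A *ᵥ u') (B *ᵥ v') - tzL u' v') = 0 := by
      rw [← hM, ← hM, ← Matrix.mulVec_add]
      exact h
    have hv' : v' = 0 := by
      have h1 := congrArg (ctr φ) h0
      simp only [map_add, map_sub, ctr_tzL, hφu, hφAu, zero_smul, sub_zero, zero_add, map_zero] at h1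
      by_contra hne
      by_cases hγ : φ (A *ᵥ u') = 0
      · rw [hγ, zero_smul, zero_sub, neg_eq_zero] at h1
        rcases smul_eq_zero.1 h1 with h2 | h2
        · exact hφu' h2
        · exact hne h2
      · apply hB v' ((φ (A *ᵥ u'))⁻¹ * φ u') hne
        rw [sub_eq_zero] at h1
        rw [mul_smul, ← h1, smul_smul, inv_mul_cancel₀ hγ, one_smul]
    subst hv'
    have hv : v = 0 := by
      have h1 := congrArg (ctr ψ) h0
      simp only [map_add, map_sub, ctr_tzL, hψu, zero_smul, sub_zero, map_zero, Matrix.mulVec_zero,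
        smul_zero, add_zero] at h1
      by_contra hne
      rcases smul_eq_zero.1 h1 with h2 | h2
      · exact hψAu h2
      · exact hB v 0 hne (by rw [h2, zero_smul])
    rw [hv]
    rfl
  have h1 := LinearMap.finrank_range_of_inj hinj
  have h2 : Module.finrank F (LinearMap.range (M.mulVecLin ∘ₗ Ψ)) ≤ M.rank :=
    Submodule.finrank_mono (LinearMap.range_comp_le_range _ _)
  rw [h1, Module.finrank_prod, Module.finrank_fin_fun] at h2
  change 2 * b ≤ M.rank
  omega

end Cfsg.Agent.Lib.Helper52.TSp
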