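import Cfsg.Agent.Lib.Helper52.TSp.Defs

set_option autoImplicit false

namespace Cfsg.Agent.Lib.Helper52.TSp

open Matrix Cfsg Cfsg.Geo
open scoped Kronecker MatrixGroups

variable {F : Type*} [Field F] {a b d : ℕ}

/-! ### SC (helper12) -/

theorem kron_eq_smul_one (A : Matrix (Fin a) (Fin a) F) (B : Matrix (Fin b) (Fin b) F) (z : F)
    (hz : z ≠ 0) (ha : 0 < a) (hb : 0 < b)
    (h : A ⊗ₖ B = z • (1 : Matrix (Fin a × Fin b) (Fin a × Fin b) F)) :
    ∃ s t : F, A = s • 1 ∧ B = t • 1 ∧ s * t = z := by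
  have hent : ∀ i i' j j', A i i' * B j j' = if (i, j) = (i', j') then z else 0 := by
    intro i i' j j'
    have := congrFun (congrFun h (i, j)) (i', j')
    rw [Matrix.kroneckerMap_apply, Matrix.smul_apply, Matrix.one_apply, smul_eq_mul] at this
    rw [this]
    split_ifs <;> simp
  let i0 : Fin a := ⟨0, ha⟩
  let j0 : Fin b := ⟨0, hb⟩
  have h00 : A i0 i0 * B j0 j0 = z := by rw [hent, if_pos rfl]
  have hA0 : A i0 i0 ≠ 0 := left_ne_zero_of_mul (h00 ▸ hz)
  have hB0 : B j0 j0 ≠ 0 := right_ne_zero_of_mul (h00 ▸ hz)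
  refine ⟨A i0 i0, B j0 j0, ?_, ?_, h00⟩
  · ext i i'
    rw [Matrix.smul_apply, Matrix.one_apply, smul_eq_mul]
    have h1 := hent i i' j0 j0
    by_cases hii : i = i'
    · subst hii
      rw [if_pos rfl, ← h00] at h1
      rw [if_pos rfl, mul_one]
      exact mul_right_cancel₀ hB0 h1
    · rw [if_neg (by intro h'; exact hii (congrArg Prod.fst h'))] at h1
      rw [if_neg hii, mul_zero]
      exact (mul_eq_zero.1 h1).resolve_right hB0
  · ext j j'
    rw [Matrix.smul_apply, Matrix.one_apply, smul_eq_mul]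
    have h1 := hent i0 i0 j j'
    by_cases hjj : j = j'
    · subst hjj
      rw [if_pos rfl, ← h00] at h1
      rw [if_pos rfl, mul_one]
      exact mul_left_cancel₀ hA0 h1
    · rw [if_neg (by intro h'; exact hjj (congrArg Prod.snd h'))] at h1
      rw [if_neg hjj, mul_zero]
      exact (mul_eq_zero.1 h1).resolve_left hA0

end Cfsg.Agent.Lib.Helper52.TSp
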