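import Cfsg.Agent.Lib.Helper52.TSp.Defs

set_option autoImplicit false

namespace Cfsg.Agent.Lib.Helper52.TSp

open Matrix Cfsg Cfsg.Geo
open scoped Kronecker MatrixGroups

variable {F : Type*} [Field F] {a b d : ℕ}

/-! ### SIM (helper12) -/

theorem kron_eq_kron (X G1 : Matrix (Fin a) (Fin a) F) (Y G2 : Matrix (Fin b) (Fin b) F)
    (h1 : G1 ≠ 0) (h2 : G2 ≠ 0) (h : X ⊗ₖ Y = G1 ⊗ₖ G2) :
    ∃ μ : F, μ ≠ 0 ∧ X = μ • G1 ∧ Y = μ⁻¹ • G2 := by
  have hent : ∀ i i' j j', X i i' * Y j j' = G1 i i' * G2 j j' := by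
    intro i i' j j'
    have := congrFun (congrFun h (i, j)) (i', j')
    rwa [Matrix.kroneckerMap_apply, Matrix.kroneckerMap_apply] at this
  obtain ⟨i0, i0', hi⟩ : ∃ i i', G1 i i' ≠ 0 := by
    by_contra hcon
    push Not at hcon
    exact h1 (by ext i i'; exact hcon i i')
  obtain ⟨j0, j0', hj⟩ : ∃ j j', G2 j j' ≠ 0 := by
    by_contra hcon
    push Not at hcon
    exact h2 (by ext j j'; exact hcon j j')
  have h00 := hent i0 i0' j0 j0'
  have hne : X i0 i0' * Y j0 j0' ≠ 0 := by rw [h00]; exact mul_ne_zero hi hj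
  have hX0 : X i0 i0' ≠ 0 := left_ne_zero_of_mul hne
  have hY0 : Y j0 j0' ≠ 0 := right_ne_zero_of_mul hne
  refine ⟨G2 j0 j0' / Y j0 j0', div_ne_zero hj hY0, ?_, ?_⟩
  · ext i i'
    rw [Matrix.smul_apply, smul_eq_mul]
    have := hent i i' j0 j0'
    field_simp
    linear_combination this
  · ext j j'
    rw [Matrix.smul_apply, smul_eq_mul, inv_div]
    have e1 := hent i0 i0' j j'
    field_simp
    -- Y j j' * G2 j0 j0' = Y j0 j0' * G2 j j'
    have e2 : X i0 i0' * (Y j j' * G2 j0 j0') = X i0 i0' * (Y j0 j0' * G2 j j') := by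
      calc X i0 i0' * (Y j j' * G2 j0 j0') = (X i0 i0' * Y j j') * G2 j0 j0' := by ring
        _ = (G1 i0 i0' * G2 j j') * G2 j0 j0' := by rw [e1]
        _ = (G1 i0 i0' * G2 j0 j0') * G2 j j' := by ring
        _ = (X i0 i0' * Y j0 j0') * G2 j j' := by rw [h00]
        _ = _ := by ring
    exact mul_left_cancel₀ hX0 e2

end Cfsg.Agent.Lib.Helper52.TSp
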