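import Cfsg.Agent.Lib.Helper52.TSp.Defs

/-! TSp farm piece TR3 (helper16 for helper52). -/

set_option autoImplicit false

namespace Cfsg.Agent.Lib.Helper52.TSp

open Matrix Cfsg Cfsg.Geo
open scoped Kronecker MatrixGroups

variable {F : Type*} [Field F] {a b d : ℕ}

namespace TR3

theorem val_conj {ι : Type} [Fintype ι] [DecidableEq ι] (g x : GL ι F) (c : F) :
    ((g * x * g⁻¹ : GL ι F) : Matrix ι ι F) - c • (1 : Matrix ι ι F)
      = (g : Matrix ι ι F) * ((x : Matrix ι ι F) - c • (1 : Matrix ι ι F)) *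
          ((g⁻¹ : GL ι F) : Matrix ι ι F) := by
  have h1 : (g : Matrix ι ι F) * ((g⁻¹ : GL ι F) : Matrix ι ι F) = 1 := by
    rw [← Units.val_mul, mul_inv_cancel, Units.val_one]
  rw [Matrix.mul_sub, Matrix.sub_mul, Units.val_mul, Units.val_mul, Matrix.mul_smul, Matrix.mul_one,
    Matrix.smul_mul, h1]

theorem rank_conj' {ι : Type} [Fintype ι] [DecidableEq ι] (g x : GL ι F) (c : F) :
    (((g * x * g⁻¹ : GL ι F) : Matrix ι ι F) - c • (1 : Matrix ι ι F)).rank
      = ((x : Matrix ι ι F) - c • (1 : Matrix ι ι F)).rank := by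
  rw [val_conj]
  have hg : IsUnit (g : Matrix ι ι F).det := (Matrix.isUnit_iff_isUnit_det _).1 g.isUnit
  have hg' : IsUnit ((g⁻¹ : GL ι F) : Matrix ι ι F).det :=
    (Matrix.isUnit_iff_isUnit_det _).1 (g⁻¹).isUnit
  rw [Matrix.rank_mul_eq_left_of_isUnit_det _ _ hg', Matrix.rank_mul_eq_right_of_isUnit_det _ _ hg]

theorem val_reindex {ι κ : Type} [Fintype ι] [DecidableEq ι] [Fintype κ] [DecidableEq κ]
    (e : ι ≃ κ) (k : GL κ F) :
    ((glReindex e.symm k : GL ι F) : Matrix ι ι F) = Matrix.reindex e.symm e.symm (k : Matrix κ κ F) :=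
  rfl

theorem Th_apply {ι κ : Type} [Fintype ι] [DecidableEq ι] [Fintype κ] [DecidableEq κ] (e : ι ≃ κ)
    (P : GL ι F) (k : GL κ F) : Th e P k = P * glReindex e.symm k * P⁻¹ := rfl

theorem reindex_sub {ι κ : Type} [Fintype ι] [DecidableEq ι] [Fintype κ] [DecidableEq κ]
    (e : ι ≃ κ) (k : GL κ F) (c : F) :
    ((glReindex e.symm k : GL ι F) : Matrix ι ι F) - c • (1 : Matrix ι ι F)
      = Matrix.reindex e.symm e.symm ((k : Matrix κ κ F) - c • (1 : Matrix κ κ F)) := by
  rw [val_reindex]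
  ext i j
  simp [Matrix.reindex_apply, Matrix.submatrix_apply, Matrix.one_apply]

end TR3

theorem rank_Th {ι κ : Type} [Fintype ι] [DecidableEq ι] [Fintype κ] [DecidableEq κ] (e : ι ≃ κ)
    (P : GL ι F) (k : GL κ F) (c : F) :
    (((Th e P k : GL ι F) : Matrix ι ι F) - c • (1 : Matrix ι ι F)).rank
      = ((k : Matrix κ κ F) - c • (1 : Matrix κ κ F)).rank := by
  rw [TR3.Th_apply, TR3.rank_conj', TR3.reindex_sub, Matrix.rank_reindex]

theorem Th_scalar {ι κ : Type} [Fintype ι] [DecidableEq ι] [Fintype κ] [DecidableEq κ] (e : ι ≃ κ)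
    (P : GL ι F) (k : GL κ F) (z : F) :
    ((Th e P k : GL ι F) : Matrix ι ι F) = z • (1 : Matrix ι ι F) ↔
      (k : Matrix κ κ F) = z • (1 : Matrix κ κ F) := by
  have h : ((Th e P k : GL ι F) : Matrix ι ι F) - z • (1 : Matrix ι ι F)
      = (P : Matrix ι ι F) * Matrix.reindex e.symm e.symm ((k : Matrix κ κ F) - z • (1 : Matrix κ κ F)) *
          ((P⁻¹ : GL ι F) : Matrix ι ι F) := by
    rw [TR3.Th_apply, TR3.val_conj, TR3.reindex_sub]
  have h1 : (P : Matrix ι ι F) * ((P⁻¹ : GL ι F) : Matrix ι ι F) = 1 := by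
    rw [← Units.val_mul, mul_inv_cancel, Units.val_one]
  have h2 : ((P⁻¹ : GL ι F) : Matrix ι ι F) * (P : Matrix ι ι F) = 1 := by
    rw [← Units.val_mul, inv_mul_cancel, Units.val_one]
  constructor
  · intro h0
    rw [h0, sub_self] at h
    set M := Matrix.reindex e.symm e.symm ((k : Matrix κ κ F) - z • (1 : Matrix κ κ F)) with hM
    have h3 : M = 0 := by
      calc M = (((P⁻¹ : GL ι F) : Matrix ι ι F) * (P : Matrix ι ι F)) * M *
            ((P : Matrix ι ι F) * ((P⁻¹ : GL ι F) : Matrix ι ι F)) := by rw [h1, h2, one_mul, mul_one]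
        _ = ((P⁻¹ : GL ι F) : Matrix ι ι F) * ((P : Matrix ι ι F) * M *
            ((P⁻¹ : GL ι F) : Matrix ι ι F)) * (P : Matrix ι ι F) := by
              simp only [Matrix.mul_assoc]
              rw [h1, h2]
        _ = 0 := by rw [← h]; simp
    have h4 : (k : Matrix κ κ F) - z • (1 : Matrix κ κ F) = 0 := by
      apply (Matrix.reindex e.symm e.symm).injective
      rw [← hM, h3]
      rfl
    exact sub_eq_zero.1 h4
  · intro h0
    rw [h0, sub_self] at h
    apply sub_eq_zero.1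
    rw [h]
    have : Matrix.reindex e.symm e.symm (0 : Matrix κ κ F) = 0 := rfl
    rw [this]; simp

theorem rank_conj {ι : Type} [Fintype ι] [DecidableEq ι] (g x : GL ι F) (c : F) :
    (((g⁻¹ * x * g : GL ι F) : Matrix ι ι F) - c • (1 : Matrix ι ι F)).rank
      = ((x : Matrix ι ι F) - c • (1 : Matrix ι ι F)).rank := by
  have := TR3.rank_conj' g⁻¹ x c
  rwa [inv_inv] at this

end Cfsg.Agent.Lib.Helper52.TSp
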