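import Cfsg.Agent.Lib.Helper52.TSp.RK0
import Cfsg.Agent.Lib.Helper52.TSp.RK1
import Cfsg.Agent.Lib.Helper52.TSp.RK3
import Cfsg.Agent.Lib.Helper52.TSp.SC
import Cfsg.Agent.Lib.Helper52.TSp.SIM
import Cfsg.Agent.Lib.Helper52.TSp.PA
import Cfsg.Agent.Lib.Helper52.TSp.PB
import Cfsg.Agent.Lib.Helper52.TSp.AR
import Cfsg.Agent.Lib.Helper52.TSp.TR3

/-! Piece MIN of the TSp farm (helper52): no `r`-elusive model for odd `r ∤ q (q - 1)`. -/

set_option autoImplicit false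

namespace Cfsg.Agent.Lib.Helper52.TSp

open Matrix Cfsg Cfsg.Geo
open scoped Kronecker MatrixGroups

variable {F : Type*} [Field F] {a b d : ℕ}

namespace MIN

theorem kron_pow (A : Matrix (Fin a) (Fin a) F) (B : Matrix (Fin b) (Fin b) F) (n : ℕ) :
    (A ⊗ₖ B) ^ n = (A ^ n) ⊗ₖ (B ^ n) := by
  induction n with
  | zero => simp
  | succ n ih => rw [pow_succ, ih, ← Matrix.mul_kronecker_mul, ← pow_succ, ← pow_succ]

theorem simil_pow {m : Type} [Fintype m] [DecidableEq m] (A G : Matrix m m F) (μ : F)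
    (h : Aᵀ * G * A = μ • G) (n : ℕ) : (A ^ n)ᵀ * G * (A ^ n) = μ ^ n • G := by
  induction n with
  | zero => simp
  | succ n ih =>
    rw [pow_succ, Matrix.transpose_mul]
    calc Aᵀ * (A ^ n)ᵀ * G * (A ^ n * A) = Aᵀ * ((A ^ n)ᵀ * G * (A ^ n)) * A := by
          simp only [Matrix.mul_assoc]
      _ = μ ^ n • (Aᵀ * G * A) := by rw [ih]; simp
      _ = μ ^ (n + 1) • G := by rw [h, smul_smul, pow_succ]

theorem rank_pos {m : Type} [Fintype m] [DecidableEq m] (M : Matrix m m F) (h : M ≠ 0) :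
    1 ≤ M.rank := by
  by_contra hc
  have h0 : M.rank = 0 := by omega
  apply h
  rw [Matrix.rank, Submodule.finrank_eq_zero, LinearMap.range_eq_bot] at h0
  have := congrArg LinearMap.toMatrix' h0
  rw [← Matrix.toLin'_apply', LinearMap.toMatrix'_toLin', map_zero] at this
  exact this

theorem inj_of_rank {m : Type} [Fintype m] [DecidableEq m] (M : Matrix m m F)
    (h : M.rank = Fintype.card m) (u : m → F) (hu : M *ᵥ u = 0) : u = 0 := by
  have h1 := LinearMap.finrank_range_add_finrank_ker M.mulVecLin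
  rw [Matrix.rank] at h
  rw [h, Module.finrank_fintype_fun_eq_card] at h1
  have h2 : Module.finrank F (LinearMap.ker M.mulVecLin) = 0 := by omega
  rw [Submodule.finrank_eq_zero] at h2
  have h3 : u ∈ LinearMap.ker M.mulVecLin := by
    rw [LinearMap.mem_ker, Matrix.mulVecLin_apply, hu]
  rw [h2] at h3
  simpa using h3

theorem scalar_one (hn : 0 < a) (r : ℕ) (hone : ∀ s : F, s ^ r = 1 → s = 1)
    (A : Matrix (Fin a) (Fin a) F) (hA : A ^ r = 1) (s : F) (h : A = s • 1) : A = 1 := by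
  have : s ^ r = 1 := by
    rw [h, smul_pow, one_pow] at hA
    have := congrFun (congrFun hA ⟨0, hn⟩) ⟨0, hn⟩
    simpa using this
  rw [h, hone s this, one_smul]

/-- normalisation of an element of order `r` of the isometry group lying in the Kronecker subgroup -/
theorem normalise [Fintype F] (ha : 0 < a) (hb : 0 < b)
    (G1 : Matrix (Fin a) (Fin a) F) (h1 : G1 ≠ 0)
    (G2 : Matrix (Fin b) (Fin b) F) (h2 : G2 ≠ 0)
    (r : ℕ) (hr : r.Prime) (hrq : ¬ r ∣ Fintype.card F - 1)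
    (y : GL (Fin a × Fin b) F) (hy : y ∈ IsoM (G1 ⊗ₖ G2)) (hyr : y ^ r = 1)
    (hyK : y ∈ kroneckerSubgroup a b F) :
    ∃ (A : GL (Fin a) F) (B : GL (Fin b) F),
      (y : Matrix (Fin a × Fin b) (Fin a × Fin b) F)
        = (A : Matrix (Fin a) (Fin a) F) ⊗ₖ (B : Matrix (Fin b) (Fin b) F) ∧
      A ^ r = 1 ∧ B ^ r = 1 ∧
      (A : Matrix (Fin a) (Fin a) F)ᵀ * G1 * (A : Matrix (Fin a) (Fin a) F) = G1 ∧
      (B : Matrix (Fin b) (Fin b) F)ᵀ * G2 * (B : Matrix (Fin b) (Fin b) F) = G2 := by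
  obtain ⟨hroot, hone⟩ := pow_bij_of_not_dvd (F := F) r hr hrq
  obtain ⟨A0, B0, hy0⟩ := hyK
  have hyr' : ((A0 : Matrix (Fin a) (Fin a) F) ^ r) ⊗ₖ ((B0 : Matrix (Fin b) (Fin b) F) ^ r)
      = (1 : F) • (1 : Matrix (Fin a × Fin b) (Fin a × Fin b) F) := by
    rw [← kron_pow, ← hy0, ← Units.val_pow_eq_pow_val, hyr, Units.val_one, one_smul]
  obtain ⟨s, t, hs, ht, hst⟩ := kron_eq_smul_one _ _ (1 : F) one_ne_zero ha hb hyr'
  have hs0 : s ≠ 0 := by rintro rfl; simp at hst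
  obtain ⟨τ, hτ0, hτ⟩ := hroot s hs0
  set A : Matrix (Fin a) (Fin a) F := τ⁻¹ • (A0 : Matrix (Fin a) (Fin a) F) with hA
  set B : Matrix (Fin b) (Fin b) F := τ • (B0 : Matrix (Fin b) (Fin b) F) with hB
  have hAr : A ^ r = 1 := by
    rw [hA, smul_pow, hs, smul_smul, inv_pow, hτ, inv_mul_cancel₀ hs0, one_smul]
  have hBr : B ^ r = 1 := by
    rw [hB, smul_pow, ht, smul_smul, hτ, hst, one_smul]
  have hAB : (y : Matrix (Fin a × Fin b) (Fin a × Fin b) F) = A ⊗ₖ B := by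
    rw [hy0, hA, hB, Matrix.smul_kronecker, Matrix.kronecker_smul, smul_smul,
      inv_mul_cancel₀ hτ0, one_smul]
  have hiso : (Aᵀ * G1 * A) ⊗ₖ (Bᵀ * G2 * B) = G1 ⊗ₖ G2 := by
    have := (mem_IsoM _ _).1 hy
    rw [hAB, ← Matrix.kroneckerMap_transpose, ← Matrix.mul_kronecker_mul,
      ← Matrix.mul_kronecker_mul] at this
    exact this
  obtain ⟨μ, hμ0, hμA, hμB⟩ := kron_eq_kron _ _ _ _ h1 h2 hiso
  have hμr : μ ^ r = 1 := by
    have := simil_pow A G1 μ hμA r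
    rw [hAr, Matrix.transpose_one, one_mul, mul_one] at this
    obtain ⟨i, j, hij⟩ : ∃ i j, G1 i j ≠ 0 := by
      by_contra hc
      push Not at hc
      exact h1 (by ext i j; exact hc i j)
    have h3 := congrFun (congrFun this i) j
    rw [Matrix.smul_apply, smul_eq_mul] at h3
    have h4 : (μ ^ r - 1) * G1 i j = 0 := by rw [sub_mul, ← h3]; ring
    rcases mul_eq_zero.1 h4 with h5 | h5
    · exact sub_eq_zero.1 h5
    · exact absurd h5 hij
  have hμ1 : μ = 1 := hone μ hμr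
  rw [hμ1, one_smul] at hμA
  rw [hμ1, inv_one, one_smul] at hμB
  refine ⟨⟨A, A ^ (r - 1), ?_, ?_⟩, ⟨B, B ^ (r - 1), ?_, ?_⟩, hAB, ?_, ?_, hμA, hμB⟩
  · rw [mul_pow_sub_one hr.ne_zero, hAr]
  · rw [pow_sub_one_mul hr.ne_zero, hAr]
  · rw [mul_pow_sub_one hr.ne_zero, hBr]
  · rw [pow_sub_one_mul hr.ne_zero, hBr]
  · apply Units.ext; rw [Units.val_pow_eq_pow_val]; exact hAr
  · apply Units.ext; rw [Units.val_pow_eq_pow_val]; exact hBr

theorem no_eig (r : ℕ) (hone : ∀ s : F, s ^ r = 1 → s = 1)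
    (A : Matrix (Fin a) (Fin a) F) (hA : A ^ r = 1) (hrk : (A - 1).rank = a)
    (u : Fin a → F) (l : F) (hu : u ≠ 0) : A *ᵥ u ≠ l • u := by
  intro h
  have hpow : ∀ n : ℕ, (A ^ n) *ᵥ u = l ^ n • u := by
    intro n
    induction n with
    | zero => simp
    | succ n ih =>
      rw [pow_succ, ← Matrix.mulVec_mulVec, h, Matrix.mulVec_smul, ih, smul_smul, pow_succ,
        mul_comm]
  have h1 := hpow r
  rw [hA, Matrix.one_mulVec] at h1
  obtain ⟨i, hi⟩ : ∃ i, u i ≠ 0 := by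
    by_contra hc
    push Not at hc
    exact hu (funext hc)
  have h2 := congrFun h1 i
  rw [Pi.smul_apply, smul_eq_mul] at h2
  have h3 : (l ^ r - 1) * u i = 0 := by rw [sub_mul, ← h2]; ring
  have h4 : l = 1 := by
    rcases mul_eq_zero.1 h3 with h5 | h5
    · exact hone l (sub_eq_zero.1 h5)
    · exact absurd h5 hi
  apply hu
  apply inj_of_rank (A - 1) (by rw [hrk, Fintype.card_fin])
  rw [Matrix.sub_mulVec, h, h4, one_smul, Matrix.one_mulVec, sub_self]

end MIN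

open MIN in
theorem no_elusive_model [Fintype F] (h2F : (2 : F) ≠ 0) (ha : 2 ≤ a) (hb : 3 ≤ b)
    (G1 : Matrix (Fin a) (Fin a) F) (h1 : IsUnit G1) (h1s : G1ᵀ = -G1)
    (h1a : ∀ u : Fin a → F, u ⬝ᵥ (G1 *ᵥ u) = 0)
    (G2 : Matrix (Fin b) (Fin b) F) (h2 : IsUnit G2) (h2s : G2ᵀ = G2)
    (r : ℕ) (hr : r.Prime) (hr2 : r ≠ 2) (hrF : (r : F) ≠ 0) (hrq : ¬ r ∣ Fintype.card F - 1)
    (hcard : r ∣ Nat.card (IsoM (G1 ⊗ₖ G2)))
    (hall : ∀ x ∈ IsoM (G1 ⊗ₖ G2), x ^ r = 1 → x ≠ 1 →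
      ∃ g ∈ IsoM (G1 ⊗ₖ G2), g⁻¹ * x * g ∈ kroneckerSubgroup a b F) : False := by
  classical
  have : Fact r.Prime := ⟨hr⟩
  have : Nonempty (Fin a) := ⟨⟨0, by omega⟩⟩
  have : Nonempty (Fin b) := ⟨⟨0, by omega⟩⟩
  have hodd : Odd r := hr.odd_of_ne_two hr2
  obtain ⟨hroot, hone⟩ := pow_bij_of_not_dvd (F := F) r hr hrq
  have hG1 : G1 ≠ 0 := by
    rintro rfl
    exact not_isUnit_zero h1
  have hG2 : G2 ≠ 0 := by
    rintro rfl
    exact not_isUnit_zero h2
  -- the set of ranks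
  have hex : ∃ n : ℕ, ∃ x ∈ IsoM (G1 ⊗ₖ G2), x ^ r = 1 ∧ x ≠ 1 ∧
      ((x : Matrix (Fin a × Fin b) (Fin a × Fin b) F) - 1).rank = n := by
    obtain ⟨x0, hx0⟩ := exists_prime_orderOf_dvd_card' r hcard
    refine ⟨_, (x0 : GL (Fin a × Fin b) F), x0.2, ?_, ?_, rfl⟩
    · have := pow_orderOf_eq_one x0
      rw [hx0] at this
      exact_mod_cast congrArg Subtype.val this
    · intro h
      have : x0 = 1 := Subtype.ext h
      rw [this, orderOf_one] at hx0
      exact hr.one_lt.ne hx0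
  obtain ⟨x, hx, hxr, hx1, hxρ⟩ := Nat.find_spec hex
  have hmin : ∀ x' ∈ IsoM (G1 ⊗ₖ G2), x' ^ r = 1 → x' ≠ 1 →
      Nat.find hex ≤ ((x' : Matrix (Fin a × Fin b) (Fin a × Fin b) F) - 1).rank :=
    fun x' h h' h'' => Nat.find_min' hex ⟨x', h, h', h'', rfl⟩
  set ρ := Nat.find hex with hρ
  obtain ⟨g, hg, hgK⟩ := hall x hx hxr hx1
  set y := g⁻¹ * x * g with hy
  have hyI : y ∈ IsoM (G1 ⊗ₖ G2) := mul_mem (mul_mem (inv_mem hg) hx) hg
  have hyr : y ^ r = 1 := by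
    have h : ∀ n : ℕ, (g⁻¹ * x * g) ^ n = g⁻¹ * x ^ n * g := by
      intro n
      induction n with
      | zero => simp
      | succ n ih => rw [pow_succ, ih, pow_succ]; group
    rw [hy, h, hxr]; group
  have hy1 : y ≠ 1 := by
    intro h
    apply hx1
    have : x = g * y * g⁻¹ := by rw [hy]; group
    rw [this, h]; group
  have hyρ : ((y : Matrix (Fin a × Fin b) (Fin a × Fin b) F) - 1).rank = ρ := by
    have := rank_conj g x (1 : F)
    rw [one_smul] at this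
    rw [hy, this, hxρ]
  obtain ⟨A, B, hAB, hAr, hBr, hAG, hBG⟩ :=
    normalise (by omega) (by omega) G1 hG1 G2 hG2 r hr hrq y hyI hyr hgK
  have hAr' : (A : Matrix (Fin a) (Fin a) F) ^ r = 1 := by
    rw [← Units.val_pow_eq_pow_val, hAr, Units.val_one]
  have hBr' : (B : Matrix (Fin b) (Fin b) F) ^ r = 1 := by
    rw [← Units.val_pow_eq_pow_val, hBr, Units.val_one]
  have hPA : B ≠ 1 → ρ ≤ ((B : Matrix (Fin b) (Fin b) F) - 1).rank := by
    intro hB1
    obtain ⟨x', h, h', h'', h3⟩ := exists_small_of_right G1 h1 h1s h1a (by omega) G2 h2 h2s B hBG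
      r hodd hrF hBr hB1
    exact (hmin x' h h' h'').trans h3
  have hPB : A ≠ 1 → ρ ≤ ((A : Matrix (Fin a) (Fin a) F) - 1).rank := by
    intro hA1
    obtain ⟨x', h, h', h'', h3⟩ := exists_small_of_left h2F G1 h1 h1s G2 h2 h2s (by omega) A hAG
      r hrF hAr hA1
    exact (hmin x' h h' h'').trans h3
  by_cases hAs : ∃ s : F, (A : Matrix (Fin a) (Fin a) F) = s • 1
  · obtain ⟨s, hs⟩ := hAs
    have hA1 := scalar_one (by omega) r hone _ hAr' s hs
    have hB1 : B ≠ 1 := by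
      rintro rfl
      apply hy1
      apply Units.ext
      rw [hAB, hA1, Units.val_one, Units.val_one, Matrix.one_kronecker_one]
    have h3 := rank_kron_scalar_left (a := a) (1 : F) 1 (B : Matrix (Fin b) (Fin b) F)
    rw [one_smul, one_smul, one_smul, one_smul, ← hA1, ← hAB, hyρ] at h3
    have h4 := hPA hB1
    have h5 : 1 ≤ ((B : Matrix (Fin b) (Fin b) F) - 1).rank := by
      apply MIN.rank_pos
      intro h
      apply hB1
      apply Units.ext
      rw [Units.val_one]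
      exact sub_eq_zero.1 h
    nlinarith
  by_cases hBs : ∃ s : F, (B : Matrix (Fin b) (Fin b) F) = s • 1
  · obtain ⟨s, hs⟩ := hBs
    have hB1 := scalar_one (by omega) r hone _ hBr' s hs
    have hA1 : A ≠ 1 := by
      rintro rfl
      apply hy1
      apply Units.ext
      rw [hAB, hB1, Units.val_one, Units.val_one, Matrix.one_kronecker_one]
    have h3 := rank_kron_scalar_right (b := b) (1 : F) 1 (A : Matrix (Fin a) (Fin a) F)
    rw [one_smul, one_smul, one_smul, one_smul, ← hB1, ← hAB, hyρ] at h3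
    have h4 := hPB hA1
    have h5 : 1 ≤ ((A : Matrix (Fin a) (Fin a) F) - 1).rank := by
      apply MIN.rank_pos
      intro h
      apply hA1
      apply Units.ext
      rw [Units.val_one]
      exact sub_eq_zero.1 h
    nlinarith
  push Not at hAs hBs
  have hA1 : A ≠ 1 := by
    rintro rfl
    exact hAs 1 (by rw [Units.val_one, one_smul])
  have hB1 : B ≠ 1 := by
    rintro rfl
    exact hBs 1 (by rw [Units.val_one, one_smul])
  have h3 := le_rank_kron_left (A : Matrix (Fin a) (Fin a) F) hAs (B : Matrix (Fin b) (Fin b) F)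
    B.isUnit 1
  have h4 := le_rank_kron_right (A : Matrix (Fin a) (Fin a) F) A.isUnit
    (B : Matrix (Fin b) (Fin b) F) hBs 1
  rw [one_smul, ← hAB, hyρ] at h3 h4
  have h5 := hPA hB1
  have h6 := hPB hA1
  have h7 := Matrix.rank_le_width ((B : Matrix (Fin b) (Fin b) F) - 1)
  have h8 := Matrix.rank_le_width ((A : Matrix (Fin a) (Fin a) F) - 1)
  have h9 := two_mul_le_rank_kron (by omega) (A : Matrix (Fin a) (Fin a) F)
    (no_eig r hone _ hAr' (by omega)) (B : Matrix (Fin b) (Fin b) F)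
    (no_eig r hone _ hBr' (by omega))
  rw [← hAB, hyρ] at h9
  omega

end Cfsg.Agent.Lib.Helper52.TSp
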