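import Cfsg.Agent.Lib.Helper52.TSp.Defs

/-! Piece RK0 of the TSp farm (helper52, S5980): rank of `1 ⊗ M`. -/

set_option autoImplicit false

namespace Cfsg.Agent.Lib.Helper52.TSp

open Matrix Cfsg Cfsg.Geo
open scoped Kronecker MatrixGroups

variable {F : Type*} [Field F] {a b d : ℕ}

namespace RK0

theorem finrank_range_compLeft {V W : Type*} [AddCommGroup V] [Module F V] [AddCommGroup W]
    [Module F W] [FiniteDimensional F W] (f : V →ₗ[F] W) (I : Type*) [Fintype I] :
    Module.finrank F (LinearMap.range (f.compLeft I))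
      = Fintype.card I * Module.finrank F (LinearMap.range f) := by
  have h1 : f.compLeft I
      = ((LinearMap.range f).subtype.compLeft I) ∘ₗ (f.rangeRestrict.compLeft I) := by
    apply LinearMap.ext
    intro x
    funext i
    rfl
  have h2 : Function.Surjective (f.rangeRestrict.compLeft I) := by
    intro y
    choose x hx using fun i => f.surjective_rangeRestrict (y i)
    exact ⟨x, funext hx⟩
  have h3 : Function.Injective ((LinearMap.range f).subtype.compLeft I) := by
    intro x y hxy
    funext i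
    exact Subtype.ext (congrFun hxy i)
  rw [h1, LinearMap.range_comp, LinearMap.range_eq_top.2 h2, Submodule.map_top,
    LinearMap.finrank_range_of_inj h3, Module.finrank_pi_fintype]
  simp

theorem rank_one_kron (M : Matrix (Fin b) (Fin b) F) :
    ((1 : Matrix (Fin a) (Fin a) F) ⊗ₖ M).rank = a * M.rank := by
  have key : ((1 : Matrix (Fin a) (Fin a) F) ⊗ₖ M).mulVecLin =
      (LinearEquiv.curry F F (Fin a) (Fin b)).symm.toLinearMap ∘ₗ
        (M.mulVecLin.compLeft (Fin a)) ∘ₗ (LinearEquiv.curry F F (Fin a) (Fin b)).toLinearMap := by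
    refine LinearMap.ext fun x => ?_
    funext ⟨i, j⟩
    change (((1 : Matrix (Fin a) (Fin a) F) ⊗ₖ M) *ᵥ x) (i, j) = (M *ᵥ (fun j' => x (i, j'))) j
    simp only [Matrix.mulVec, dotProduct, Fintype.sum_prod_type, Matrix.kronecker_apply,
      Matrix.one_apply, ite_mul, one_mul, zero_mul]
    rw [Finset.sum_eq_single i]
    · simp
    · intro i' _ hi'
      simp [Ne.symm hi']
    · simp
  unfold Matrix.rank
  rw [key, LinearMap.range_comp, LinearEquiv.finrank_map_eq, LinearMap.range_comp,
    LinearEquiv.range, Submodule.map_top, finrank_range_compLeft, Fintype.card_fin]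

theorem rank_kron_one (M : Matrix (Fin a) (Fin a) F) :
    (M ⊗ₖ (1 : Matrix (Fin b) (Fin b) F)).rank = b * M.rank := by
  rw [← rank_one_kron (a := b) M, Matrix.one_kronecker, Matrix.rank_reindex, Matrix.kronecker_one]

end RK0

theorem rank_kron_scalar_left (s c : F) (B : Matrix (Fin b) (Fin b) F) :
    ((s • (1 : Matrix (Fin a) (Fin a) F)) ⊗ₖ B - c • (1 : Matrix (Fin a × Fin b) (Fin a × Fin b) F)).rank
      = a * (s • B - c • (1 : Matrix (Fin b) (Fin b) F)).rank := by
  rw [← RK0.rank_one_kron]
  congr 1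
  rw [sub_eq_add_neg, sub_eq_add_neg, Matrix.kronecker_add, Matrix.smul_kronecker,
    Matrix.kronecker_smul, ← neg_smul, ← neg_smul, Matrix.kronecker_smul, Matrix.one_kronecker_one]

theorem rank_kron_scalar_right (s c : F) (A : Matrix (Fin a) (Fin a) F) :
    (A ⊗ₖ (s • (1 : Matrix (Fin b) (Fin b) F)) - c • (1 : Matrix (Fin a × Fin b) (Fin a × Fin b) F)).rank
      = b * (s • A - c • (1 : Matrix (Fin a) (Fin a) F)).rank := by
  rw [← RK0.rank_kron_one]
  congr 1
  rw [sub_eq_add_neg, sub_eq_add_neg, Matrix.add_kronecker, Matrix.smul_kronecker,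
    Matrix.kronecker_smul, ← neg_smul, ← neg_smul, Matrix.smul_kronecker, Matrix.one_kronecker_one]

end Cfsg.Agent.Lib.Helper52.TSp
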