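import Cfsg.Agent.Lib.Helper52.TSp.Defs

/-! TSp farm piece TR1 (helper16 for helper52). -/

set_option autoImplicit false

namespace Cfsg.Agent.Lib.Helper52.TSp

open Matrix Cfsg Cfsg.Geo
open scoped Kronecker MatrixGroups

variable {F : Type*} [Field F] {a b d : ℕ}

theorem tensor_eq_map {ι : Type} [Fintype ι] [DecidableEq ι] (e : ι ≃ Fin a × Fin b) (P : GL ι F) :
    tensorProductSubgroup a b e P = (kroneckerSubgroup a b F).map (Th e P).toMonoidHom := by
  unfold tensorProductSubgroup
  rw [Subgroup.map_map]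
  rfl

end Cfsg.Agent.Lib.Helper52.TSp
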