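import Cfsg.Agent.Lib.Helper52.TSp.RK0
import Cfsg.Agent.Lib.Helper52.TSp.RK1
import Cfsg.Agent.Lib.Helper52.TSp.TR1
import Cfsg.Agent.Lib.Helper52.TSp.TR3

/-! TSp farm piece RKT (helper16 for helper52). -/

set_option autoImplicit false

namespace Cfsg.Agent.Lib.Helper52.TSp

open Matrix Cfsg Cfsg.Geo
open scoped Kronecker MatrixGroups

variable {F : Type*} [Field F] {a b d : ℕ}

theorem rank_dichotomy {ι : Type} [Fintype ι] [DecidableEq ι] (e : ι ≃ Fin a × Fin b) (P : GL ι F)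
    (y : GL ι F) (hy : y ∈ tensorProductSubgroup a b e P) :
    (∀ c : F, a ∣ ((y : Matrix ι ι F) - c • (1 : Matrix ι ι F)).rank) ∨
    (∀ c : F, b ≤ ((y : Matrix ι ι F) - c • (1 : Matrix ι ι F)).rank) := by
  rw [tensor_eq_map] at hy
  obtain ⟨k, hk, rfl⟩ := hy
  obtain ⟨A, B, hAB⟩ := hk
  by_cases hA : ∃ s : F, (A : Matrix (Fin a) (Fin a) F) = s • 1
  · obtain ⟨s, hs⟩ := hA
    left
    intro c
    have h1 := rank_Th e P k c
    have h2 : (((Th e P).toMonoidHom k : GL ι F) : Matrix ι ι F) = ((Th e P k : GL ι F) : Matrix ι ι F) := rfl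
    rw [h2, h1, hAB, hs, rank_kron_scalar_left]
    exact Dvd.intro _ rfl
  · right
    intro c
    have h1 := rank_Th e P k c
    have h2 : (((Th e P).toMonoidHom k : GL ι F) : Matrix ι ι F) = ((Th e P k : GL ι F) : Matrix ι ι F) := rfl
    rw [h2, h1, hAB]
    exact le_rank_kron_left _ (fun s hs => hA ⟨s, hs⟩) _ B.isUnit c

end Cfsg.Agent.Lib.Helper52.TSp
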