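import Cfsg.Agent.Lib.Helper45.Symp
import Cfsg.Agent.Lib.Helper52.TSp.Defs

set_option autoImplicit false

namespace Cfsg.Agent.Lib.Helper52.TSp

open Matrix Cfsg Cfsg.Geo
open scoped Kronecker MatrixGroups

variable {F : Type*} [Field F] {a b d : ℕ}

namespace SKR

theorem transpose_J_mul (x : GL (Fin d ⊕ Fin d) F) (hx : x ∈ spGL d F) :
    (x : Matrix (Fin d ⊕ Fin d) (Fin d ⊕ Fin d) F)ᵀ * Matrix.J (Fin d) F *
      (x : Matrix (Fin d ⊕ Fin d) (Fin d ⊕ Fin d) F) = Matrix.J (Fin d) F := by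
  have h1 : (x : Matrix (Fin d ⊕ Fin d) (Fin d ⊕ Fin d) F) ∈ Matrix.symplecticGroup (Fin d) F := by
    rw [Cfsg.Agent.Lib.Helper45.mem_symplecticGroup_iff_form]
    intro u v
    exact hx u v
  exact (SymplecticGroup.mem_iff').1 h1

end SKR

theorem rank_sub_eq_rank_add (x : GL (Fin d ⊕ Fin d) F) (hx : x ∈ spGL d F)
    (hxx : (x : Matrix (Fin d ⊕ Fin d) (Fin d ⊕ Fin d) F) * (x : Matrix (Fin d ⊕ Fin d) (Fin d ⊕ Fin d) F) = -1)
    (c : F) :
    ((x : Matrix (Fin d ⊕ Fin d) (Fin d ⊕ Fin d) F) - c • 1).rank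
      = ((x : Matrix (Fin d ⊕ Fin d) (Fin d ⊕ Fin d) F) + c • 1).rank := by
  set X : Matrix (Fin d ⊕ Fin d) (Fin d ⊕ Fin d) F := (x : Matrix (Fin d ⊕ Fin d) (Fin d ⊕ Fin d) F) with hX
  have h0 : Xᵀ * Matrix.J (Fin d) F * X = Matrix.J (Fin d) F := SKR.transpose_J_mul x hx
  have h1 : Xᵀ * Matrix.J (Fin d) F = -(Matrix.J (Fin d) F * X) := by
    have h2 : Xᵀ * Matrix.J (Fin d) F * X * X = Matrix.J (Fin d) F * X := by rw [h0]
    rw [Matrix.mul_assoc, hxx, Matrix.mul_neg, Matrix.mul_one] at h2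
    rw [← h2, neg_neg]
  have h3 : (X - c • 1)ᵀ * Matrix.J (Fin d) F = (-Matrix.J (Fin d) F) * (X + c • 1) := by
    rw [Matrix.transpose_sub, Matrix.transpose_smul, Matrix.transpose_one, Matrix.sub_mul, h1,
      Matrix.neg_mul, Matrix.mul_add]
    simp only [Matrix.smul_mul, Matrix.one_mul, Matrix.mul_smul, Matrix.mul_one]
    abel
  have hJ : IsUnit (Matrix.J (Fin d) F).det := Matrix.isUnit_det_J (Fin d) F
  have hJ' : IsUnit (-Matrix.J (Fin d) F).det := by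
    apply Matrix.isUnit_det_of_left_inverse (B := Matrix.J (Fin d) F)
    rw [Matrix.mul_neg, Matrix.J_squared, neg_neg]
  calc (X - c • 1).rank = ((X - c • 1)ᵀ).rank := (Matrix.rank_transpose _).symm
    _ = ((X - c • 1)ᵀ * Matrix.J (Fin d) F).rank :=
        (Matrix.rank_mul_eq_left_of_isUnit_det _ _ hJ).symm
    _ = ((-Matrix.J (Fin d) F) * (X + c • 1)).rank := by rw [h3]
    _ = (X + c • 1).rank := Matrix.rank_mul_eq_right_of_isUnit_det _ _ hJ'

end Cfsg.Agent.Lib.Helper52.TSp
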