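import Cfsg.Agent.Lib.Helper52.TSp.Defs
import Cfsg.Agent.Lib.Helper44.SpConj
import Cfsg.Agent.Lib.Helper45.Symp

set_option autoImplicit false

namespace Cfsg.Agent.Lib.Helper52.TSp

open Matrix Cfsg Cfsg.Geo
open scoped Kronecker MatrixGroups

variable {F : Type*} [Field F] {a b d : ℕ}

theorem SPC.mem_iff (x : GL (Fin d ⊕ Fin d) F) :
    x ∈ spGL d F ↔
      (x : Matrix (Fin d ⊕ Fin d) (Fin d ⊕ Fin d) F) ∈ Matrix.symplecticGroup (Fin d) F := by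
  rw [Cfsg.Agent.Lib.Helper45.mem_symplecticGroup_iff_form]
  rfl

theorem sp_conj_of_gl_conj [Fintype F] (p : ℕ) [Fact p.Prime] [CharP F p]
    (x y : GL (Fin d ⊕ Fin d) F) (hx : x ∈ spGL d F) (hy : y ∈ spGL d F) (m : ℕ) (hm : x ^ m = 1)
    (hmp : m.Coprime p) (c : GL (Fin d ⊕ Fin d) F) (hc : c * x = y * c) :
    ∃ g ∈ spGL d F, g⁻¹ * x * g = y := by
  have hxA := (SPC.mem_iff x).1 hx
  have hyB := (SPC.mem_iff y).1 hy
  have hAm : (⟨x, hxA⟩ : Matrix.symplecticGroup (Fin d) F) ^ m = 1 := by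
    apply Subtype.ext
    have h1 : (x : Matrix (Fin d ⊕ Fin d) (Fin d ⊕ Fin d) F) ^ m = 1 := by
      rw [← Units.val_pow_eq_pow_val, hm, Units.val_one]
    rw [SubmonoidClass.coe_pow]
    exact h1
  have hord : (orderOf (⟨x, hxA⟩ : Matrix.symplecticGroup (Fin d) F)).Coprime p :=
    Nat.Coprime.coprime_dvd_left (orderOf_dvd_of_pow_eq_one hAm) hmp
  have hconj : IsConj (x : Matrix (Fin d ⊕ Fin d) (Fin d ⊕ Fin d) F)
      (y : Matrix (Fin d ⊕ Fin d) (Fin d ⊕ Fin d) F) := by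
    refine ⟨c, ?_⟩
    have h1 : (c : Matrix (Fin d ⊕ Fin d) (Fin d ⊕ Fin d) F) * x = y * c := by
      rw [← Units.val_mul, hc, Units.val_mul]
    exact h1
  have hAB : IsConj (⟨x, hxA⟩ : Matrix.symplecticGroup (Fin d) F) ⟨y, hyB⟩ := by
    rw [Cfsg.Agent.Lib.Helper44.sp_isConj_iff_gl (p := p) _ _ hord]
    exact hconj
  obtain ⟨C, hC⟩ := isConj_iff.1 hAB
  have h1 : (C : Matrix (Fin d ⊕ Fin d) (Fin d ⊕ Fin d) F) *
      ((C⁻¹ : Matrix.symplecticGroup (Fin d) F) : Matrix (Fin d ⊕ Fin d) (Fin d ⊕ Fin d) F) = 1 := by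
    rw [← Submonoid.coe_mul, mul_inv_cancel, Submonoid.coe_one]
  have h2 : ((C⁻¹ : Matrix.symplecticGroup (Fin d) F) : Matrix (Fin d ⊕ Fin d) (Fin d ⊕ Fin d) F) *
      (C : Matrix (Fin d ⊕ Fin d) (Fin d ⊕ Fin d) F) = 1 := by
    rw [← Submonoid.coe_mul, inv_mul_cancel, Submonoid.coe_one]
  have h3 : (C : Matrix (Fin d ⊕ Fin d) (Fin d ⊕ Fin d) F) * x *
      ((C⁻¹ : Matrix.symplecticGroup (Fin d) F) : Matrix (Fin d ⊕ Fin d) (Fin d ⊕ Fin d) F) = y := by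
    have := congrArg Subtype.val hC
    rw [Submonoid.coe_mul, Submonoid.coe_mul] at this
    exact this
  refine ⟨⟨_, _, h2, h1⟩, ?_, ?_⟩
  · rw [SPC.mem_iff]
    exact (C⁻¹).2
  · apply Units.ext
    rw [Units.val_mul, Units.val_mul]
    exact h3

end Cfsg.Agent.Lib.Helper52.TSp
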