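import Cfsg.Agent.Lib.Helper52.TSp.Defs
import Cfsg.Agent.Lib.Helper94.SpRow.Defs2

set_option autoImplicit false

namespace Cfsg.Agent.Lib.Helper52.TSp

open Matrix Cfsg Cfsg.Geo
open scoped Kronecker MatrixGroups

variable {F : Type*} [Field F] {a b d : ℕ}

namespace TR2

theorem formOfGram_eq {κ : Type} [Fintype κ] (G : Matrix κ κ F) (x y : κ → F) :
    formOfGram id G x y = x ⬝ᵥ (G *ᵥ y) := by
  unfold formOfGram dotProduct mulVec dotProduct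
  refine Finset.sum_congr rfl fun i _ => ?_
  rw [Finset.mul_sum]
  refine Finset.sum_congr rfl fun j _ => ?_
  simp [mul_assoc]

theorem iso_iff {κ : Type} [Fintype κ] [DecidableEq κ] (G : Matrix κ κ F) (k : GL κ F) :
    k ∈ IsoM G ↔ ∀ x y : κ → F, formOfGram id G ((k : Matrix κ κ F) *ᵥ x) ((k : Matrix κ κ F) *ᵥ y)
      = formOfGram id G x y := by
  have key : ∀ u v : κ → F,
      formOfGram id G ((k : Matrix κ κ F) *ᵥ u) ((k : Matrix κ κ F) *ᵥ v) =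
        u ⬝ᵥ (((k : Matrix κ κ F)ᵀ * G * (k : Matrix κ κ F)) *ᵥ v) := by
    intro u v
    rw [formOfGram_eq, ← Matrix.mulVec_mulVec, ← Matrix.mulVec_mulVec, Matrix.mulVec_transpose,
      dotProduct_comm u, ← Matrix.dotProduct_mulVec, dotProduct_comm]
  rw [mem_IsoM]
  constructor
  · intro h u v
    rw [key, h, formOfGram_eq]
  · intro h
    ext i j
    have := h (Pi.single i 1) (Pi.single j 1)
    rw [key, formOfGram_eq] at this
    simpa using this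

theorem Th_mulVec {ι κ : Type} [Fintype ι] [DecidableEq ι] [Fintype κ] [DecidableEq κ] (e : ι ≃ κ)
    (P : GL ι F) (k : GL κ F) (x : κ → F) :
    ((Th e P k : GL ι F) : Matrix ι ι F) *ᵥ ((P : Matrix ι ι F) *ᵥ (x ∘ e))
      = (P : Matrix ι ι F) *ᵥ (((k : Matrix κ κ F) *ᵥ x) ∘ e) := by
  have h1 : ((Th e P k : GL ι F) : Matrix ι ι F)
      = (P : Matrix ι ι F) * ((k : Matrix κ κ F).submatrix e e) * ((P⁻¹ : GL ι F) : Matrix ι ι F) := by
    rfl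
  have h2 : ((P⁻¹ : GL ι F) : Matrix ι ι F) * (P : Matrix ι ι F) = 1 := by
    rw [← Units.val_mul, inv_mul_cancel, Units.val_one]
  rw [h1, Matrix.mulVec_mulVec, Matrix.mul_assoc, h2, Matrix.mul_one, ← Matrix.mulVec_mulVec,
    Matrix.submatrix_mulVec_equiv]
  have h3 : (x ∘ e) ∘ e.symm = x := by
    funext i; simp
  rw [h3]

end TR2

open TR2 in
theorem spGL_eq_map (e : (Fin d ⊕ Fin d) ≃ Fin a × Fin b) (P : GL (Fin d ⊕ Fin d) F)
    (f₁ : (Fin a → F) → (Fin a → F) → F) (f₂ : (Fin b → F) → (Fin b → F) → F)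
    (hS : IsTensorFormStructure id (sympForm d F) f₁ f₂ e P) :
    spGL d F = (IsoM (gramMatrix f₁ ⊗ₖ gramMatrix f₂)).map (Th e P).toMonoidHom := by
  obtain ⟨c, hc, hS⟩ := hS
  have hP2 : (P : Matrix (Fin d ⊕ Fin d) (Fin d ⊕ Fin d) F) * ((P⁻¹ : GL (Fin d ⊕ Fin d) F) :
      Matrix (Fin d ⊕ Fin d) (Fin d ⊕ Fin d) F) = 1 := by
    rw [← Units.val_mul, mul_inv_cancel, Units.val_one]
  have hsurj : ∀ u : Fin d ⊕ Fin d → F, ∃ x : Fin a × Fin b → F,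
      u = (P : Matrix (Fin d ⊕ Fin d) (Fin d ⊕ Fin d) F) *ᵥ (x ∘ e) := by
    intro u
    refine ⟨(((P⁻¹ : GL (Fin d ⊕ Fin d) F) : Matrix (Fin d ⊕ Fin d) (Fin d ⊕ Fin d) F) *ᵥ u) ∘ e.symm, ?_⟩
    have : ((((P⁻¹ : GL (Fin d ⊕ Fin d) F) : Matrix (Fin d ⊕ Fin d) (Fin d ⊕ Fin d) F) *ᵥ u) ∘ e.symm) ∘ e
        = ((P⁻¹ : GL (Fin d ⊕ Fin d) F) : Matrix (Fin d ⊕ Fin d) (Fin d ⊕ Fin d) F) *ᵥ u := by
      funext i; simp
    rw [this, Matrix.mulVec_mulVec, hP2, Matrix.one_mulVec]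
  have main : ∀ k : GL (Fin a × Fin b) F,
      Th e P k ∈ spGL d F ↔ k ∈ IsoM (gramMatrix f₁ ⊗ₖ gramMatrix f₂) := by
    intro k
    rw [Cfsg.Agent.Lib.Helper94.SpRow.mem_spGL, iso_iff]
    constructor
    · intro h x y
      have := h ((P : Matrix (Fin d ⊕ Fin d) (Fin d ⊕ Fin d) F) *ᵥ (x ∘ e))
        ((P : Matrix (Fin d ⊕ Fin d) (Fin d ⊕ Fin d) F) *ᵥ (y ∘ e))
      rw [Th_mulVec, Th_mulVec, hS, hS] at this
      exact mul_left_cancel₀ hc this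
    · intro h u v
      obtain ⟨x, rfl⟩ := hsurj u
      obtain ⟨y, rfl⟩ := hsurj v
      rw [Th_mulVec, Th_mulVec, hS, hS, h]
  ext g
  constructor
  · intro hg
    refine ⟨(Th e P).symm g, (main _).1 ?_, ?_⟩
    · rw [MulEquiv.apply_symm_apply]; exact hg
    · exact MulEquiv.apply_symm_apply _ _
  · rintro ⟨k, hk, rfl⟩
    exact (main k).2 hk

end Cfsg.Agent.Lib.Helper52.TSp
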