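import Cfsg.Agent.Lib.Helper52.TSp.Defs

/-! TSp farm, piece XP: a symplectic transvection of order `p`. -/

set_option autoImplicit false

namespace Cfsg.Agent.Lib.Helper52.TSp

open Matrix Cfsg Cfsg.Geo
open scoped Kronecker MatrixGroups

variable {F : Type*} [Field F] {a b d : ℕ}

namespace XP

/-- the nilpotent matrix -/
def N (F : Type*) [Field F] {d : ℕ} (i : Fin d) : Matrix (Fin d ⊕ Fin d) (Fin d ⊕ Fin d) F :=
  Matrix.single (Sum.inl i) (Sum.inr i) 1

theorem N_mul_N (i : Fin d) : N F i * N F i = 0 := by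
  unfold N
  rw [Matrix.single_mul_single_of_ne]
  exact fun h => by cases h

theorem one_add_pow (i : Fin d) (k : ℕ) : (1 + N F i) ^ k = 1 + (k : F) • N F i := by
  induction k with
  | zero => simp
  | succ k ih =>
    rw [pow_succ, ih, add_mul, mul_add, mul_add, one_mul, one_mul, mul_one, Matrix.smul_mul,
      N_mul_N, smul_zero, add_zero, Nat.cast_succ, add_smul, one_smul]
    abel

theorem N_mulVec (i : Fin d) (u : Fin d ⊕ Fin d → F) :
    N F i *ᵥ u = Pi.single (Sum.inl i) (u (Sum.inr i)) := by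
  unfold N
  ext x
  rw [Matrix.single_mulVec]
  simp [Function.update_apply, Pi.single_apply]

theorem rank_N (i : Fin d) : (N F i).rank = 1 := by
  apply le_antisymm
  · unfold N
    rw [Matrix.single_eq_single_vecMulVec_single]
    exact Matrix.rank_vecMulVec_le _ _
  · rw [Nat.one_le_iff_ne_zero]
    intro h
    unfold Matrix.rank at h
    rw [Submodule.finrank_eq_zero, LinearMap.range_eq_bot] at h
    have h1 : N F i *ᵥ (Pi.single (Sum.inr i) 1) = 0 := by
      rw [← Matrix.mulVecLin_apply, h]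
      rfl
    rw [N_mulVec] at h1
    have h2 := congrFun h1 (Sum.inl i)
    simp at h2

end XP

theorem exists_transv (p : ℕ) [Fact p.Prime] [CharP F p] (hd : 1 ≤ d) :
    ∃ x ∈ spGL d F, x ^ p = 1 ∧
      (∀ z : F, (x : Matrix (Fin d ⊕ Fin d) (Fin d ⊕ Fin d) F) ≠ z • 1) ∧
      ((x : Matrix (Fin d ⊕ Fin d) (Fin d ⊕ Fin d) F) - (1 : F) • 1).rank = 1 := by
  let i : Fin d := ⟨0, hd⟩
  have h1 : (1 + XP.N F i) * (1 - XP.N F i) = 1 := by
    rw [add_mul, mul_sub, mul_sub, one_mul, one_mul, mul_one, XP.N_mul_N]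
    abel
  have h2 : (1 - XP.N F i) * (1 + XP.N F i) = 1 := by
    rw [sub_mul, mul_add, mul_add, one_mul, one_mul, mul_one, XP.N_mul_N]
    abel
  let x : GL (Fin d ⊕ Fin d) F := ⟨1 + XP.N F i, 1 - XP.N F i, h1, h2⟩
  have hx : (x : Matrix (Fin d ⊕ Fin d) (Fin d ⊕ Fin d) F) = 1 + XP.N F i := rfl
  refine ⟨x, ?_, ?_, ?_, ?_⟩
  · intro u v
    show sympForm d F ((x : Matrix (Fin d ⊕ Fin d) (Fin d ⊕ Fin d) F) *ᵥ u)
      ((x : Matrix (Fin d ⊕ Fin d) (Fin d ⊕ Fin d) F) *ᵥ v) = sympForm d F u v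
    rw [hx, Matrix.add_mulVec, Matrix.add_mulVec, Matrix.one_mulVec, Matrix.one_mulVec,
      XP.N_mulVec, XP.N_mulVec]
    unfold sympForm
    simp only [J, dotProduct, fromBlocks_mulVec, Fintype.sum_sum_type, Sum.elim_inl, Sum.elim_inr]
    simp [Function.comp_def, neg_mulVec, Pi.single_apply, mul_add, add_mul, Finset.sum_add_distrib]
    ring
  · apply Units.ext
    rw [Units.val_pow_eq_pow_val, hx, XP.one_add_pow, CharP.cast_eq_zero, zero_smul, add_zero]
    rfl
  · intro z hz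
    rw [hx] at hz
    have := congrFun (congrFun hz (Sum.inl i)) (Sum.inr i)
    simp [XP.N] at this
  · rw [hx, one_smul, add_sub_cancel_left]
    exact XP.rank_N i

end Cfsg.Agent.Lib.Helper52.TSp
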