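import Cfsg.Agent.Lib.Helper52.TSp.Defs

set_option autoImplicit false

namespace Cfsg.Agent.Lib.Helper52.TSp

open Matrix Cfsg Cfsg.Geo
open scoped Kronecker MatrixGroups

variable {F : Type*} [Field F] {a b d : ℕ}

theorem exists_J (G1 : Matrix (Fin 2) (Fin 2) F) (h1s : G1ᵀ = -G1)
    (h1a : ∀ u : Fin 2 → F, u ⬝ᵥ (G1 *ᵥ u) = 0) :
    ∃ J : GL (Fin 2) F, (J : Matrix (Fin 2) (Fin 2) F)ᵀ * G1 * (J : Matrix (Fin 2) (Fin 2) F) = G1 ∧
      (J : Matrix (Fin 2) (Fin 2) F) * (J : Matrix (Fin 2) (Fin 2) F) = -1 := by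
  have h00 : G1 0 0 = 0 := by
    have := h1a ![1, 0]
    simpa [Matrix.mulVec, dotProduct, Fin.sum_univ_two] using this
  have h11 : G1 1 1 = 0 := by
    have := h1a ![0, 1]
    simpa [Matrix.mulVec, dotProduct, Fin.sum_univ_two] using this
  have h10 : G1 1 0 = -G1 0 1 := by
    have := congrFun (congrFun h1s 0) 1
    simpa using this
  have hG : G1 = !![0, G1 0 1; -G1 0 1, 0] := by
    ext i j
    fin_cases i <;> fin_cases j <;> simp [h00, h11, h10]
  refine ⟨Matrix.GeneralLinearGroup.mkOfDetNeZero !![0, 1; -1, 0] (by simp [Matrix.det_fin_two]), ?_, ?_⟩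
  · show (!![0, 1; -1, 0] : Matrix (Fin 2) (Fin 2) F)ᵀ * G1 * !![0, 1; -1, 0] = G1
    rw [hG]
    ext i j
    fin_cases i <;> fin_cases j <;> simp [Matrix.mul_apply, Fin.sum_univ_two]
  · show (!![0, 1; -1, 0] : Matrix (Fin 2) (Fin 2) F) * !![0, 1; -1, 0] = -1
    ext i j
    fin_cases i <;> fin_cases j <;> simp [Matrix.mul_apply, Fin.sum_univ_two]

end Cfsg.Agent.Lib.Helper52.TSp
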