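import Mathlib
import Cfsg.Agent.Lib.Helper52.TSp.Defs

/-! TSp farm (helper52), piece Y1 (helper67). -/

set_option autoImplicit false

namespace Cfsg.Agent.Lib.Helper52.TSp

open Matrix Cfsg Cfsg.Geo
open scoped Kronecker MatrixGroups

variable {F : Type*} [Field F] {a b d : ℕ}

theorem exists_orth_invol (h2 : (2 : F) ≠ 0) (G2 : Matrix (Fin b) (Fin b) F) (hG : IsUnit G2)
    (hs : G2ᵀ = G2) (j : ℕ) (hj : j ≤ b) :
    ∃ D : GL (Fin b) F, (D : Matrix (Fin b) (Fin b) F)ᵀ * G2 * (D : Matrix (Fin b) (Fin b) F) = G2 ∧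
      D * D = 1 ∧ ((D : Matrix (Fin b) (Fin b) F) - (1 : F) • 1).rank = j := by
  classical
  haveI : Invertible (2 : F) := invertibleOfNonzero h2
  have hsymm : LinearMap.IsSymm (Matrix.toBilin' G2) := by
    refine ⟨fun x y => ?_⟩
    simp only [RingHom.id_apply]
    rw [Matrix.toBilin'_apply', Matrix.toBilin'_apply']
    rw [Matrix.dotProduct_mulVec, ← Matrix.mulVec_transpose, hs, dotProduct_comm]
  obtain ⟨v0, hv0⟩ := LinearMap.BilinForm.exists_orthogonal_basis hsymm
  have hcard : Module.finrank F (Fin b → F) = b := by simp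
  let v : Module.Basis (Fin b) F (Fin b → F) := v0.reindex (finCongr hcard)
  have hv : ∀ i k, i ≠ k → (v i) ⬝ᵥ (G2 *ᵥ (v k)) = 0 := by
    intro i k hik
    have := hv0 (i := (finCongr hcard).symm i) (j := (finCongr hcard).symm k)
      (fun h => hik ((finCongr hcard).symm.injective h))
    simp only [Function.onFun] at this
    rw [Matrix.toBilin'_apply'] at this
    simpa [v] using this
  let P : Matrix (Fin b) (Fin b) F := (Pi.basisFun F (Fin b)).toMatrix v
  let Q : Matrix (Fin b) (Fin b) F := v.toMatrix (Pi.basisFun F (Fin b))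
  have hPQ : P * Q = 1 := Module.Basis.toMatrix_mul_toMatrix_flip _ _
  have hQP : Q * P = 1 := Module.Basis.toMatrix_mul_toMatrix_flip _ _
  have hPe : ∀ i k, P i k = v k i := fun i k => by simp [P, Module.Basis.toMatrix_apply]
  let ε : Fin b → F := fun i => if (i : ℕ) < j then -1 else 1
  let E : Matrix (Fin b) (Fin b) F := Matrix.diagonal ε
  have hεε : ∀ i, ε i * ε i = 1 := by
    intro i
    simp only [ε]
    split_ifs <;> simp
  have hEE : E * E = 1 := by
    simp only [E, Matrix.diagonal_mul_diagonal, hεε]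
    exact Matrix.diagonal_one
  have hΔ : Pᵀ * G2 * P = Matrix.diagonal (fun i => (v i) ⬝ᵥ (G2 *ᵥ (v i))) := by
    have hent : ∀ i k, (Pᵀ * G2 * P) i k = (v i) ⬝ᵥ (G2 *ᵥ (v k)) := by
      intro i k
      simp only [Matrix.mul_apply, Matrix.transpose_apply, hPe, dotProduct, Matrix.mulVec,
        Finset.sum_mul, Finset.mul_sum]
      rw [Finset.sum_comm]
      refine Finset.sum_congr rfl fun x _ => Finset.sum_congr rfl fun y _ => ?_
      ring
    ext i k
    rw [hent]
    by_cases hik : i = k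
    · subst hik; simp
    · rw [hv i k hik, Matrix.diagonal_apply_ne _ hik]
  have hEΔE : E * (Pᵀ * G2 * P) * E = Pᵀ * G2 * P := by
    rw [hΔ]
    simp only [E, Matrix.diagonal_mul_diagonal]
    congr 1
    funext i
    have := hεε i
    linear_combination ((v i) ⬝ᵥ (G2 *ᵥ (v i))) * this
  let Dm : Matrix (Fin b) (Fin b) F := P * E * Q
  have hDD : Dm * Dm = 1 := by
    calc Dm * Dm = P * (E * (Q * P) * E) * Q := by simp only [Dm, Matrix.mul_assoc]
      _ = 1 := by rw [hQP, Matrix.mul_one, hEE, Matrix.mul_one, hPQ]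
  refine ⟨⟨Dm, Dm, hDD, hDD⟩, ?_, ?_, ?_⟩
  · show Dmᵀ * G2 * Dm = G2
    have hEt : Eᵀ = E := Matrix.diagonal_transpose _
    calc Dmᵀ * G2 * Dm = Qᵀ * (E * (Pᵀ * G2 * P) * E) * Q := by
          simp only [Dm, Matrix.transpose_mul, hEt, Matrix.mul_assoc]
      _ = Qᵀ * (Pᵀ * G2 * P) * Q := by rw [hEΔE]
      _ = (P * Q)ᵀ * G2 * (P * Q) := by simp only [Matrix.transpose_mul, Matrix.mul_assoc]
      _ = G2 := by rw [hPQ]; simp
  · apply Units.ext
    exact hDD
  · show (Dm - (1 : F) • 1).rank = j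
    have hPu : IsUnit P.det := (Matrix.isUnit_iff_isUnit_det P).1 ⟨⟨P, Q, hPQ, hQP⟩, rfl⟩
    have hQu : IsUnit Q.det := (Matrix.isUnit_iff_isUnit_det Q).1 ⟨⟨Q, P, hQP, hPQ⟩, rfl⟩
    have e1 : Dm - (1 : F) • 1 = P * (E - 1) * Q := by
      rw [one_smul, Matrix.mul_sub, Matrix.sub_mul, Matrix.mul_one, hPQ]
    rw [e1, Matrix.rank_mul_eq_left_of_isUnit_det _ _ hQu, Matrix.rank_mul_eq_right_of_isUnit_det _ _ hPu]
    have e2 : E - 1 = Matrix.diagonal (fun i => ε i - 1) := by
      rw [← Matrix.diagonal_one, Matrix.diagonal_sub]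
    rw [e2, Matrix.rank_diagonal, Fintype.card_subtype]
    have e3 : (Finset.univ.filter fun i : Fin b => ε i - 1 ≠ 0)
        = Finset.univ.filter fun i : Fin b => (i : ℕ) < j := by
      ext i
      simp only [Finset.mem_filter, Finset.mem_univ, true_and, ε]
      split_ifs with h
      · simp only [h, iff_true]
        intro h0
        apply h2
        linear_combination -h0
      · simp [h]
    rw [e3, Fin.card_filter_val_lt]
    omega

end Cfsg.Agent.Lib.Helper52.TSp
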