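import Cfsg.Agent.Lib.Helper45.Symp
import Cfsg.Agent.Lib.Helper52.TSp.Defs

set_option autoImplicit false

namespace Cfsg.Agent.Lib.Helper52.TSp

open Matrix Cfsg Cfsg.Geo
open scoped Kronecker MatrixGroups

variable {F : Type*} [Field F] {a b d : ℕ}

theorem sq_scalar (hd : 1 ≤ d) (x : GL (Fin d ⊕ Fin d) F) (hx : x ∈ spGL d F) (z : F)
    (h : ((x ^ 2 : GL (Fin d ⊕ Fin d) F) : Matrix (Fin d ⊕ Fin d) (Fin d ⊕ Fin d) F) = z • 1) :
    z = 1 ∨ z = -1 := by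
  have hx2 : x ^ 2 ∈ spGL d F := (spGL d F).pow_mem hx 2
  have h1 := hx2 (Pi.single (Sum.inr ⟨0, hd⟩) 1) (Pi.single (Sum.inl ⟨0, hd⟩) 1)
  have h2 : (glToMat (Fin d ⊕ Fin d) F) (x ^ 2) = z • 1 := h
  rw [h2] at h1
  simp only [Matrix.smul_mulVec, Matrix.one_mulVec] at h1
  unfold sympForm at h1
  rw [Matrix.mulVec_smul, smul_dotProduct, dotProduct_smul,
    Cfsg.Agent.Lib.Helper45.dotProduct_J_mulVec] at h1
  have hS : ∑ j : Fin d, (Pi.single (Sum.inr ⟨0, hd⟩) 1 : Fin d ⊕ Fin d → F) (Sum.inr j) *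
      (Pi.single (Sum.inl ⟨0, hd⟩) 1 : Fin d ⊕ Fin d → F) (Sum.inl j) = 1 := by
    rw [Finset.sum_eq_single (⟨0, hd⟩ : Fin d)]
    · simp
    · intro j _ hj
      rw [Pi.single_apply, if_neg (by simpa using hj), zero_mul]
    · intro hj; exact absurd (Finset.mem_univ _) hj
  have hS' : ∑ j : Fin d, (Pi.single (Sum.inr ⟨0, hd⟩) 1 : Fin d ⊕ Fin d → F) (Sum.inl j) *
      (Pi.single (Sum.inl ⟨0, hd⟩) 1 : Fin d ⊕ Fin d → F) (Sum.inr j) = 0 := by
    apply Finset.sum_eq_zero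
    intro j _
    rw [Pi.single_apply, if_neg (by simp), zero_mul]
  rw [hS, hS'] at h1
  simp only [smul_eq_mul, sub_zero, mul_one] at h1
  have h3 : (z - 1) * (z + 1) = 0 := by linear_combination h1
  rcases mul_eq_zero.1 h3 with h4 | h4
  · left; linear_combination h4
  · right; linear_combination h4

end Cfsg.Agent.Lib.Helper52.TSp
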